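import Cfsg.Agent.Lib.Helper22.Aut1

/-!
# Automorphisms of Chevalley groups, part 2: normalisation by an inner automorphism
-/

set_option autoImplicit false

namespace Cfsg.Agent.Lib.Helper22
open Cfsg.Lie Matrix Cfsg.Agent.Lib.Helper23 Cfsg.Agent.Lib.Helper45
open scoped Pointwise

variable {D : ChevalleyDatum} {F : Type*} [Field F]

theorem exists_conj_pos {p : ℕ} [Fact p.Prime] [Finite F]
    (hS : ∃ P : Sylow p ↥(D.group F), (P : Subgroup ↥(D.group F)) = (D.posUnipotent F).subgroupOf (D.group F))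
    (θ : ↥(D.group F) ≃* ↥(D.group F)) :
    ∃ x : ↥(D.group F), Maps (θ.trans (MulAut.conj x)) (D.posUnipotent F) (D.posUnipotent F) := by
  obtain ⟨P, hP⟩ := hS
  have hmem : ∀ g : ↥(D.group F), g ∈ P ↔ (g : GL D.Idx F) ∈ D.posUnipotent F := by
    intro g
    have : g ∈ P ↔ g ∈ (P : Subgroup ↥(D.group F)) := Iff.rfl
    rw [this, hP, Subgroup.mem_subgroupOf]
  have : Finite ↥(D.group F) := inferInstance
  obtain ⟨x, hx⟩ := MulAction.exists_smul_eq ↥(D.group F) ((θ : MulAut ↥(D.group F)) • P) P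
  refine ⟨x, fun g => ?_⟩
  rw [← hmem, ← hmem]
  have h1 : (θ.trans (MulAut.conj x)) g ∈ P ↔ (θ.trans (MulAut.conj x)) g ∈ x • ((θ : MulAut ↥(D.group F)) • P) := by
    rw [hx]
  rw [h1]
  have h2 : (θ.trans (MulAut.conj x)) g = MulAut.conj x • ((θ : MulAut ↥(D.group F)) • g) := rfl
  rw [h2]
  have h3 : MulAut.conj x • ((θ : MulAut ↥(D.group F)) • g) ∈ x • ((θ : MulAut ↥(D.group F)) • P) ↔
      MulAut.conj x • ((θ : MulAut ↥(D.group F)) • g) ∈
        MulAut.conj x • ((θ : MulAut ↥(D.group F)) • (P : Subgroup ↥(D.group F))) := Iff.rfl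
  rw [h3, Subgroup.smul_mem_pointwise_smul_iff, Subgroup.smul_mem_pointwise_smul_iff]
  exact Iff.rfl

section bundle
variable (b : Bundle D F)
include b

theorem exists_long : ∃ n0 ∈ D.monomialSubgroup F, ∀ y : GL D.Idx F,
    y ∈ D.negUnipotent F ↔ n0⁻¹ * y * n0 ∈ D.posUnipotent F := by
  obtain ⟨n, hn, h⟩ := b.hA.exists_conj_pos_eq_neg b.hR b.hN b.hL
  refine ⟨n, hn, fun y => ?_⟩
  rw [← h]
  constructor
  · rintro ⟨u, hu, rfl⟩
    simp only [MulEquiv.coe_toMonoidHom, MulAut.conj_apply]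
    have e : n⁻¹ * (n * u * n⁻¹) * n = u := by group
    rw [e]
    exact hu
  · intro hy
    refine ⟨_, hy, ?_⟩
    simp only [MulEquiv.coe_toMonoidHom, MulAut.conj_apply]
    group

theorem exists_conj_neg (θ : ↥(D.group F) ≃* ↥(D.group F))
    (hU : Maps θ (D.posUnipotent F) (D.posUnipotent F)) :
    ∃ x : ↥(D.group F), Maps (θ.trans (MulAut.conj x)) (D.posUnipotent F) (D.posUnipotent F) ∧
      Maps (θ.trans (MulAut.conj x)) (D.negUnipotent F) (D.negUnipotent F) := by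
  obtain ⟨n0, hn0, hV⟩ := exists_long b
  have hn0G := b.hA.mono_le_group hn0
  obtain ⟨u, hu, m, hm, v, hv, e⟩ := b.hA.exists_UNU b.hR b.hN b.hT b.hTri b.hC (θ ⟨n0, hn0G⟩).2
  have huG := b.hA.pos_le_group hu
  have hdis : ∀ u' ∈ D.posUnipotent F, m * u' * m⁻¹ ∈ D.posUnipotent F → u' = 1 := by
    intro u' hu' hc
    have hu2 : v⁻¹ * u' * v ∈ D.posUnipotent F := mul_mem (mul_mem (inv_mem hv) hu') hv
    obtain ⟨a, ha, hae⟩ := hU.exists_preimage hu2 (b.hA.pos_le_group hu2)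
    have h1 : ((θ (⟨n0, hn0G⟩ * a * ⟨n0, hn0G⟩⁻¹) : ↥(D.group F)) : GL D.Idx F) = u * (m * u' * m⁻¹) * u⁻¹ := by
      rw [map_mul, map_mul, map_inv]
      simp only [Subgroup.coe_mul, InvMemClass.coe_inv]
      rw [hae, e]
      group
    have h2 : ((⟨n0, hn0G⟩ * a * ⟨n0, hn0G⟩⁻¹ : ↥(D.group F)) : GL D.Idx F) ∈ D.posUnipotent F := by
      rw [hU, h1]
      exact mul_mem (mul_mem hu hc) (inv_mem hu)
    have h3 : ((⟨n0, hn0G⟩ * a * ⟨n0, hn0G⟩⁻¹ : ↥(D.group F)) : GL D.Idx F) ∈ D.negUnipotent F := by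
      rw [hV]
      simp only [Subgroup.coe_mul, InvMemClass.coe_inv]
      have e2 : n0⁻¹ * (n0 * (a : GL D.Idx F) * n0⁻¹) * n0 = a := by group
      rw [e2]
      exact ha
    have h4 : ((⟨n0, hn0G⟩ * a * ⟨n0, hn0G⟩⁻¹ : ↥(D.group F)) : GL D.Idx F) ∈
        D.posUnipotent F ⊓ D.negUnipotent F := ⟨h2, h3⟩
    rw [pos_inf_neg b, Subgroup.mem_bot] at h4
    have h5 : (a : GL D.Idx F) = 1 := by
      simp only [Subgroup.coe_mul, InvMemClass.coe_inv] at h4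
      have : (a : GL D.Idx F) = n0⁻¹ * (n0 * (a : GL D.Idx F) * n0⁻¹) * n0 := by group
      rw [this, h4]; group
    have h6 : a = 1 := Subtype.ext h5
    rw [h6, map_one] at hae
    have : u' = v * (v⁻¹ * u' * v) * v⁻¹ := by group
    rw [this, ← hae]
    simp
  have hV' := conj_pos_eq_neg_of_disjoint b hm hdis
  refine ⟨⟨u, huG⟩⁻¹, hU.trans (maps_conj_of_normalizes ?_), fun g => ?_⟩
  · exact b.hA.borel_le_normalizer_pos b.hT (AddFact.pos_le_borel (inv_mem hu))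
  · have h1 : (((θ.trans (MulAut.conj (⟨u, huG⟩ : ↥(D.group F))⁻¹)) g : ↥(D.group F)) : GL D.Idx F) =
        u⁻¹ * (θ g : GL D.Idx F) * u := by
      simp
    rw [h1, hV' (u⁻¹ * (θ g : GL D.Idx F) * u), hV (g : GL D.Idx F)]
    have h2 := hU (⟨n0, hn0G⟩⁻¹ * g * ⟨n0, hn0G⟩)
    have h3 : ((⟨n0, hn0G⟩⁻¹ * g * ⟨n0, hn0G⟩ : ↥(D.group F)) : GL D.Idx F) = n0⁻¹ * (g : GL D.Idx F) * n0 := rfl
    rw [h3] at h2
    rw [h2, map_mul, map_mul, map_inv]
    simp only [Subgroup.coe_mul, InvMemClass.coe_inv]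
    rw [e]
    have h4 : (u * m * v)⁻¹ * (θ g : GL D.Idx F) * (u * m * v) =
        v⁻¹ * (m⁻¹ * (u⁻¹ * (θ g : GL D.Idx F) * u) * m) * v⁻¹⁻¹ := by group
    rw [h4]
    exact (conj_pos_of_borel b (AddFact.pos_le_borel (inv_mem hv)) _).symm

theorem exists_normalize {p : ℕ} [Fact p.Prime] [Finite F]
    (hS : ∃ P : Sylow p ↥(D.group F), (P : Subgroup ↥(D.group F)) = (D.posUnipotent F).subgroupOf (D.group F))
    (θ : ↥(D.group F) ≃* ↥(D.group F)) :
    ∃ x : ↥(D.group F), Maps (θ.trans (MulAut.conj x)) (D.posUnipotent F) (D.posUnipotent F) ∧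
      Maps (θ.trans (MulAut.conj x)) (D.negUnipotent F) (D.negUnipotent F) := by
  obtain ⟨x1, h1⟩ := exists_conj_pos hS θ
  obtain ⟨x2, h2, h3⟩ := exists_conj_neg b _ h1
  have e : (θ.trans (MulAut.conj x1)).trans (MulAut.conj x2) = θ.trans (MulAut.conj (x2 * x1)) := by
    ext g
    simp [MulAut.conj_apply, mul_assoc]
  rw [e] at h2 h3
  exact ⟨_, h2, h3⟩

end bundle

end Cfsg.Agent.Lib.Helper22
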