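import Cfsg.Agent.Lib.Helper22.Aut2

/-!
# Automorphisms of Chevalley groups, part 3: `P_i ∩ V = X_{-p_i}`
-/

set_option autoImplicit false

namespace Cfsg.Agent.Lib.Helper22
open Cfsg.Lie Matrix Cfsg.Agent.Lib.Helper23 Cfsg.Agent.Lib.Helper45

variable {D : ChevalleyDatum} {F : Type*} [Field F]

section bundle
variable (b : Bundle D F)
include b

theorem maps_borel {θ : ↥(D.group F) ≃* ↥(D.group F)} (hU : Maps θ (D.posUnipotent F) (D.posUnipotent F)) :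
    Maps θ (D.borelSubgroup F) (D.borelSubgroup F) := by
  have key : ∀ θ' : ↥(D.group F) ≃* ↥(D.group F), Maps θ' (D.posUnipotent F) (D.posUnipotent F) →
      ∀ g : ↥(D.group F), (g : GL D.Idx F) ∈ D.borelSubgroup F → (θ' g : GL D.Idx F) ∈ D.borelSubgroup F := by
    intro θ' hU' g hg
    apply mem_borel_of_conj_pos b (θ' g).2
    intro u hu
    obtain ⟨a, ha, hae⟩ := hU'.exists_preimage hu (b.hA.pos_le_group hu)
    have e : ((θ' (g * a * g⁻¹) : ↥(D.group F)) : GL D.Idx F) = (θ' g : GL D.Idx F) * u * (θ' g : GL D.Idx F)⁻¹ := by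
      simp [hae]
    rw [← e, ← hU']
    exact (conj_pos_of_borel b hg _).1 ha
  intro g
  constructor
  · exact key θ hU g
  · intro h
    have := key θ.symm hU.symm (θ g) h
    simpa using this

/-- `B n_i B = X_i n_i B`. -/
theorem par_form {i : ℕ} (hi : i < D.rank) {g : GL D.Idx F} (hg : InBB D F (b.hA.nn i) g) :
    ∃ t : F, ∃ b3 ∈ D.borelSubgroup F, g = b.hA.X (D.simple i) t * b.hA.nn i * b3 := by
  obtain ⟨b1, hb1, b2, hb2, rfl⟩ := hg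
  obtain ⟨u, hu, h, hh, rfl⟩ := (b.hA.mem_borel_iff b.hT).1 hb1
  obtain ⟨ui, hui, t, rfl⟩ := (b.hA.mem_pos_iff b.hC hi (b.hR.simple_pos hi)).1 hu
  set x := b.hA.X (D.simple i) t with hx
  set n := b.hA.nn i with hn
  have h1 : x⁻¹ * ui * x⁻¹⁻¹ ∈ b.hA.Ui i :=
    (Subgroup.mem_normalizer_iff.1 (inv_mem (b.hA.X_simple_mem_normalizer_Ui b.hC hi t)) ui).1 hui
  have h2 : n⁻¹ * (x⁻¹ * ui * x⁻¹⁻¹) * n⁻¹⁻¹ ∈ b.hA.Ui i :=
    (Subgroup.mem_normalizer_iff.1 (inv_mem (b.hA.nn_mem_normalizer_Ui b.hR b.hN hi)) _).1 h1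
  have h3 : n⁻¹ * h * n ∈ D.diagonalSubgroup F := b.hA.nn_inv_conj_diag b.hR b.hN hi hh
  refine ⟨t, (n⁻¹ * (x⁻¹ * ui * x⁻¹⁻¹) * n⁻¹⁻¹) * (n⁻¹ * h * n) * b2,
    mul_mem (mul_mem (AddFact.pos_le_borel (b.hA.Ui_le_pos i h2)) (AddFact.diag_le_borel h3)) hb2, ?_⟩
  rw [← hx]
  group

theorem nn_mul_borel_not_neg {i : ℕ} (hi : i < D.rank) {b3 : GL D.Idx F} (hb3 : b3 ∈ D.borelSubgroup F) :
    b.hA.nn i * b3 ∉ D.negUnipotent F := by
  intro hV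
  obtain ⟨ε, h1, -, h3⟩ := b.hA.nn_conj b.hR b.hN hi
  have h4 := h3 _ (b.hR.simple_lt hi) 1
  rw [RootFacts.refl_simple] at h4
  set g := b.hA.nn i * b3 with hg
  have h5 : b3⁻¹ * b.hA.X (D.simple i) 1 * b3⁻¹⁻¹ ∈ D.posUnipotent F :=
    (conj_pos_of_borel b (inv_mem hb3) _).1 (b.hA.X_mem_pos (b.hR.simple_pos hi) 1)
  have h6 : b3⁻¹ * b.hA.X (D.simple i) 1 * b3⁻¹⁻¹ =
      g⁻¹ * (b.hA.nn i * b.hA.X (D.simple i) 1 * (b.hA.nn i)⁻¹) * g := by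
    rw [hg]; group
  have h7 : b3⁻¹ * b.hA.X (D.simple i) 1 * b3⁻¹⁻¹ ∈ D.negUnipotent F := by
    rw [h6, h4]
    exact mul_mem (mul_mem (inv_mem hV) (b.hA.X_mem_neg (b.hR.neg_of_pos (b.hR.simple_pos hi)) _)) hV
  have h8 : b3⁻¹ * b.hA.X (D.simple i) 1 * b3⁻¹⁻¹ ∈ D.posUnipotent F ⊓ D.negUnipotent F := ⟨h5, h7⟩
  rw [pos_inf_neg b, Subgroup.mem_bot] at h8
  have h9 : b.hA.X (D.simple i) 1 = 1 := by
    have : b.hA.X (D.simple i) 1 = b3 * (b3⁻¹ * b.hA.X (D.simple i) 1 * b3⁻¹⁻¹) * b3⁻¹ := by group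
    rw [this, h8]; group
  exact one_ne_zero (b.hA.X_eq_one b.hTri (b.hR.simple_lt hi) h9)

/-- `x_i(t) n_i ∈ x_{-i}(t⁻¹) B` for `t ≠ 0`. -/
theorem X_mul_nn_form {i : ℕ} (hi : i < D.rank) {t : F} (ht : t ≠ 0) :
    ∃ b4 ∈ D.borelSubgroup F, b.hA.X (D.simple i) t * b.hA.nn i = b.hA.X (D.neg (D.simple i)) t⁻¹ * b4 := by
  have hlt := b.hR.simple_lt hi
  have e1 := b.hA.X_neg_eq b.hR hlt ht
  obtain ⟨ε, hε, h2⟩ := b.hA.nword_conj_nG b.hR b.hN (w := [i]) (by simpa using hi) hlt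
  simp only [AddFact.nword_cons, AddFact.nword_nil, mul_one, wact_cons, wact_nil, RootFacts.refl_simple] at h2
  have h3 := h2 (ε * -t⁻¹)
  have hεε : ε * (ε * -t⁻¹) = -t⁻¹ := by rcases hε with rfl | rfl <;> simp
  rw [hεε, b.hA.nG_eq_hG_mul (D.simple i)] at h3
  have hc : ε * -t⁻¹ ≠ 0 := by
    rcases hε with rfl | rfl <;> simp [ht]
  have hh1 := b.hA.hG_mem_diag hlt hc
  set h1 := b.hA.hG (D.simple i) (ε * -t⁻¹) with hh1def
  obtain ⟨η, -, h4⟩ := b.hA.nn_inv_conj b.hR b.hN hi (b.hR.neg_lt hlt)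
  rw [b.hR.refl_neg_simple hi] at h4
  have e5 : (b.hA.X (D.neg (D.simple i)) (-t⁻¹))⁻¹ = b.hA.X (D.neg (D.simple i)) t⁻¹ := by
    rw [b.hA.X_inv, neg_neg]
  rw [e5] at e1
  have hnn : b.hA.nG (D.simple i) 1 = b.hA.nn i := rfl
  rw [hnn] at h3
  refine ⟨(b.hA.nn i * h1 * (b.hA.nn i)⁻¹) * (b.hA.nn i * b.hA.nn i) * b.hA.X (D.simple i) (η * t⁻¹), ?_, ?_⟩
  · exact mul_mem (mul_mem (AddFact.diag_le_borel (b.hA.nn_conj_diag b.hR b.hN hi hh1))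
      (AddFact.diag_le_borel (b.hA.nn_sq_mem b.hR hi)))
      (AddFact.pos_le_borel (b.hA.X_mem_pos (b.hR.simple_pos hi) _))
  · rw [← h4, e1, ← h3]
    group

/-- `V ∩ (B ∪ B n_i B) ≤ X_{-p_i}`. -/
theorem mem_root_of_neg_of_par {i : ℕ} (hi : i < D.rank) {g : GL D.Idx F} (hV : g ∈ D.negUnipotent F)
    (hP : g ∈ D.borelSubgroup F ∨ InBB D F (b.hA.nn i) g) : g ∈ D.rootSubgroup F (D.neg (D.simple i)) := by
  rcases hP with hB | hP
  · have : g ∈ D.borelSubgroup F ⊓ D.negUnipotent F := ⟨hB, hV⟩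
    rw [b.hTri.BV, Subgroup.mem_bot] at this
    rw [this]
    exact one_mem _
  · obtain ⟨t, b3, hb3, rfl⟩ := par_form b hi hP
    by_cases ht : t = 0
    · subst ht
      rw [b.hA.X_zero, one_mul] at hV
      exact absurd hV (nn_mul_borel_not_neg b hi hb3)
    · obtain ⟨b4, hb4, e⟩ := X_mul_nn_form b hi ht
      rw [e] at hV ⊢
      have hy : b.hA.X (D.neg (D.simple i)) t⁻¹ ∈ D.negUnipotent F :=
        b.hA.X_mem_neg (b.hR.neg_of_pos (b.hR.simple_pos hi)) _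
      have h1 : b4 * b3 ∈ D.borelSubgroup F ⊓ D.negUnipotent F := by
        refine ⟨mul_mem hb4 hb3, ?_⟩
        have : b4 * b3 = (b.hA.X (D.neg (D.simple i)) t⁻¹)⁻¹ * (b.hA.X (D.neg (D.simple i)) t⁻¹ * b4 * b3) := by
          group
        rw [this]
        exact Subgroup.mul_mem _ (Subgroup.inv_mem _ hy) hV
      rw [b.hTri.BV, Subgroup.mem_bot] at h1
      rw [mul_assoc, h1, mul_one]
      exact b.hA.X_mem_rootSubgroup _ _

end bundle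

end Cfsg.Agent.Lib.Helper22
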