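import Cfsg.Agent.Lib.Helper22.Aut3
import Cfsg.Agent.S0316

/-!
# Automorphisms of Chevalley groups, part 4: the negative fundamental root subgroups are permuted
-/

set_option autoImplicit false

namespace Cfsg.Agent.Lib.Helper22
open Cfsg.Lie Matrix Cfsg.Agent.Lib.Helper23 Cfsg.Agent.Lib.Helper45

/-- an automorphism fixing `B` permutes the minimal parabolic subgroups. -/
theorem exists_par_perm {G : Type*} [Group G] (P : Cfsg.BNPair G) (θ : G ≃* G)
    (hB : P.B.map θ.toMonoidHom = P.B) (s : P.S) :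
    ∃ s' : P.S, (P.parabolic {(s : G)}).map θ.toMonoidHom = P.parabolic {(s' : G)} := by
  have hB' : P.B.map θ.symm.toMonoidHom = P.B := by
    conv_lhs => rw [← hB]
    rw [Subgroup.map_map]
    have : θ.symm.toMonoidHom.comp θ.toMonoidHom = MonoidHom.id G := by
      ext x; simp
    rw [this, Subgroup.map_id]
  let Φ : {M : Subgroup G // P.B ≤ M} ≃o {M : Subgroup G // P.B ≤ M} :=
    { toFun := fun M => ⟨M.1.map θ.toMonoidHom, by
        conv_lhs => rw [← hB]
        exact Subgroup.map_mono M.2⟩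
      invFun := fun M => ⟨M.1.map θ.symm.toMonoidHom, by
        conv_lhs => rw [← hB']
        exact Subgroup.map_mono M.2⟩
      left_inv := by
        intro M
        apply Subtype.ext
        show (M.1.map θ.toMonoidHom).map θ.symm.toMonoidHom = M.1
        rw [Subgroup.map_map]
        have : θ.symm.toMonoidHom.comp θ.toMonoidHom = MonoidHom.id G := by
          ext x; simp
        rw [this, Subgroup.map_id]
      right_inv := by
        intro M
        apply Subtype.ext
        show (M.1.map θ.symm.toMonoidHom).map θ.toMonoidHom = M.1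
        rw [Subgroup.map_map]
        have : θ.toMonoidHom.comp θ.symm.toMonoidHom = MonoidHom.id G := by
          ext x; simp
        rw [this, Subgroup.map_id]
      map_rel_iff' := by
        intro M M'
        exact Subgroup.map_le_map_iff_of_injective θ.injective }
  obtain ⟨e, he⟩ := Cfsg.Agent.S0316.result P
  let ψ : Set P.S ≃o Set P.S := (e.trans Φ).trans e.symm
  have hat : IsAtom (ψ {s}) := (OrderIso.isAtom_iff ψ _).2 (Set.isAtom_singleton s)
  obtain ⟨s', hs'⟩ := Set.isAtom_iff.1 hat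
  refine ⟨s', ?_⟩
  have h1 : e (ψ {s}) = Φ (e {s}) := e.apply_symm_apply _
  rw [hs'] at h1
  have h2 := congrArg Subtype.val h1
  rw [he] at h2
  have h3 : (Φ (e {s})).1 = (e {s}).1.map θ.toMonoidHom := rfl
  rw [h3, he, Set.image_singleton, Set.image_singleton] at h2
  exact h2.symm

variable {D : ChevalleyDatum} {F : Type*} [Field F]

section bundle
variable (b : Bundle D F)
include b

/-- `X_{-p_i} = V ∩ P_i`. -/
theorem mem_negRoot_iff (P : Cfsg.BNPair ↥(D.group F))
    (hPB : P.B = (D.borelSubgroup F).subgroupOf (D.group F)) {i : ℕ} (hi : i < D.rank) (g : ↥(D.group F)) :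
    (g : GL D.Idx F) ∈ D.rootSubgroup F (D.neg (D.simple i)) ↔
      (g : GL D.Idx F) ∈ D.negUnipotent F ∧
        g ∈ P.parabolic {(⟨b.hA.nn i, b.hA.nG_mem_group _ _⟩ : ↥(D.group F))} := by
  constructor
  · intro hg
    obtain ⟨t, ht⟩ := (b.hA.mem_rootSubgroup_iff _ _).1 hg
    refine ⟨ht ▸ b.hA.X_mem_neg (b.hR.neg_of_pos (b.hR.simple_pos hi)) t, ?_⟩
    obtain ⟨ε, h1, -, h3⟩ := b.hA.nn_conj b.hR b.hN hi
    have h4 := h3 _ (b.hR.simple_lt hi) (ε (D.simple i) * t)
    rw [RootFacts.refl_simple] at h4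
    have h5 : ε (D.simple i) * (ε (D.simple i) * t) = t := by
      rcases h1 _ (b.hR.simple_lt hi) with h | h <;> simp [h]
    rw [h5, ← ht] at h4
    have h6 : g = (⟨b.hA.nn i, b.hA.nG_mem_group _ _⟩ : ↥(D.group F)) *
        ⟨b.hA.X (D.simple i) (ε (D.simple i) * t), b.hA.X_mem_group _ _⟩ *
        (⟨b.hA.nn i, b.hA.nG_mem_group _ _⟩ : ↥(D.group F))⁻¹ := Subtype.ext h4.symm
    rw [h6]
    have hs : (⟨b.hA.nn i, b.hA.nG_mem_group _ _⟩ : ↥(D.group F)) ∈
        P.parabolic {(⟨b.hA.nn i, b.hA.nG_mem_group _ _⟩ : ↥(D.group F))} :=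
      Subgroup.mem_sup_right (Subgroup.subset_closure rfl)
    refine mul_mem (mul_mem hs (Subgroup.mem_sup_left ?_)) (inv_mem hs)
    rw [hPB, Subgroup.mem_subgroupOf]
    exact AddFact.pos_le_borel (b.hA.X_mem_pos (b.hR.simple_pos hi) _)
  · rintro ⟨hV, hP⟩
    apply mem_root_of_neg_of_par b hi hV
    obtain ⟨Pm, hPm⟩ := b.hA.exists_minimal_parabolic b.hR b.hN b.hT b.hC hi
    have hle : P.parabolic {(⟨b.hA.nn i, b.hA.nG_mem_group _ _⟩ : ↥(D.group F))} ≤ Pm.subgroupOf (D.group F) := by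
      apply sup_le
      · intro x hx
        rw [hPB, Subgroup.mem_subgroupOf] at hx
        rw [Subgroup.mem_subgroupOf, ← SetLike.mem_coe, hPm]
        exact Or.inl hx
      · rw [Subgroup.closure_le]
        rintro x rfl
        rw [SetLike.mem_coe, Subgroup.mem_subgroupOf, ← SetLike.mem_coe, hPm]
        right
        rw [DoubleCoset.mem_doubleCoset]
        exact ⟨1, one_mem _, 1, one_mem _, by simp⟩
    have h1 := hle hP
    rw [Subgroup.mem_subgroupOf, ← SetLike.mem_coe, hPm] at h1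
    rcases h1 with h1 | h1
    · exact Or.inl h1
    · right
      rw [DoubleCoset.mem_doubleCoset] at h1
      exact h1

theorem exists_negRoot_perm {θ : ↥(D.group F) ≃* ↥(D.group F)}
    (hU : Maps θ (D.posUnipotent F) (D.posUnipotent F)) (hV : Maps θ (D.negUnipotent F) (D.negUnipotent F))
    {i : ℕ} (hi : i < D.rank) :
    ∃ j < D.rank, Maps θ (D.rootSubgroup F (D.neg (D.simple i))) (D.rootSubgroup F (D.neg (D.simple j))) := by
  obtain ⟨P, hPB, -, hPS⟩ := b.hA.exists_bnPair b.hR b.hN b.hT b.hTri b.hC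
  have hB := maps_borel b hU
  have hBmap : P.B.map θ.toMonoidHom = P.B := by
    ext y
    rw [hPB, Subgroup.mem_map, Subgroup.mem_subgroupOf]
    constructor
    · rintro ⟨x, hx, rfl⟩
      rw [Subgroup.mem_subgroupOf] at hx
      exact (hB x).1 hx
    · intro hy
      refine ⟨θ.symm y, ?_, by simp⟩
      rw [Subgroup.mem_subgroupOf, hB]
      simpa using hy
  have hs : (⟨b.hA.nn i, b.hA.nG_mem_group _ _⟩ : ↥(D.group F)) ∈ P.S := by
    rw [hPS]
    exact ⟨i, hi, b.hA.coe_nG _ _⟩
  obtain ⟨⟨s', hs'⟩, h1⟩ := exists_par_perm P θ hBmap ⟨_, hs⟩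
  have hs'' := hs'
  rw [hPS] at hs''
  obtain ⟨j, hj, hsj⟩ := hs''
  have hsj' : s' = (⟨b.hA.nn j, b.hA.nG_mem_group _ _⟩ : ↥(D.group F)) :=
    Subtype.ext ((b.hA.eq_nG_iff _ _ _).1 hsj)
  refine ⟨j, hj, fun g => ?_⟩
  rw [mem_negRoot_iff b P hPB hi, mem_negRoot_iff b P hPB hj, ← hsj', hV g]
  apply and_congr_right
  intro _
  simp only at h1
  rw [← h1, Subgroup.mem_map]
  constructor
  · intro h
    exact ⟨g, h, rfl⟩
  · rintro ⟨x, hx, hxe⟩
    have : x = g := θ.injective hxe
    rwa [← this]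

end bundle

end Cfsg.Agent.Lib.Helper22
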