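import Cfsg.Agent.Lib.Helper22.AutC

/-!
# RUNG E of the ladder for the automorphisms of Chevalley groups: `len_test`, `cartan_conn`
-/

set_option autoImplicit false
set_option maxRecDepth 100000

namespace Cfsg.Agent.Lib.Helper22
open Cfsg.Lie Matrix Cfsg.Agent.Lib.Helper23 Cfsg.Agent.Lib.Helper45

theorem X_not_commute_of_terms {D : ChevalleyDatum} {F : Type*} [Field F]
    (hD : D ∈ [chevG2, chevB2, chevD4, chevF4, chevE6, chevE7, chevE8])
    {r s k : ℕ} {c : ℤ} (hr : r < D.nroots) (hs : s < D.nroots) (h1 : s ≠ r) (h2 : s ≠ D.neg r)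
    (h3 : D.commTerms r s = [(k, c, 1, 1)]) (hk : k < D.nroots) (hc : (c : F) ≠ 0) :
    D.x F r 1 * D.x F s 1 ≠ D.x F s 1 * D.x F r 1 := by
  intro h
  have b := bundle_of_mem F hD
  have e := Cfsg.Agent.S1025.result (F := F) D hD r s hr hs h1 h2 1 1
  have hw : D.commWord F r s 1 1 = [(k, -(c : F))] := by
    unfold ChevalleyDatum.commWord
    rw [h3]
    simp
  rw [hw, ← h] at e
  have e' : b.hA.X r 1 * b.hA.X s 1 = b.hA.X r 1 * b.hA.X s 1 * b.hA.X k (-(c : F)) := by
    apply Units.ext
    simp only [Units.val_mul, b.hA.coe_X]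
    have hw2 : D.wordMat F [(k, -(c : F))] = D.x F k (-(c : F)) := by simp [ChevalleyDatum.wordMat]
    rw [hw2] at e
    exact e
  have e2 : b.hA.X k (-(c : F)) = 1 := by
    have := mul_left_cancel (a := b.hA.X r 1 * b.hA.X s 1) (b := 1) (c := b.hA.X k (-(c : F))) (by rw [mul_one]; exact e')
    exact this.symm
  have := b.hA.X_eq_one b.hTri hk e2
  exact hc (neg_eq_zero.1 this)

theorem natCast_ne_zero_of_ringChar {F : Type*} [Field F] {p : ℕ} (hp : p.Prime) (h : ringChar F ≠ p) :
    ((p : ℤ) : F) ≠ 0 := by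
  intro h0
  have h1 : ((p : ℕ) : F) = 0 := by exact_mod_cast h0
  have h2 := ringChar.dvd h1
  rcases (Nat.dvd_prime hp).1 h2 with h3 | h3
  · exact CharP.ringChar_ne_one h3
  · exact h h3

theorem perm2_key : ∀ π : Equiv.Perm (Fin 2), ∀ i, π i ≠ i → π 0 = 1 ∧ π 1 = 0 := by decide

theorem permF4_key : ∀ π : Equiv.Perm (Fin 4),
    (∀ i j : Fin 4, i ≠ j → chevF4.bonds (π i) (π j) = chevF4.bonds i j) →
    (∃ i : Fin 4, chevF4.isLong (chevF4.simple (π i)) ≠ chevF4.isLong (chevF4.simple i)) →
    π 1 = 2 ∧ π 2 = 1 := by decide +kernel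

theorem not_long_of_simplyLaced {D : ChevalleyDatum} (hD : D ∈ [chevD4, chevE6, chevE7, chevE8]) :
    ∀ i < D.rank, D.isLong (D.simple i) = false := by
  simp only [List.mem_cons, List.not_mem_nil, or_false] at hD
  rcases hD with rfl | rfl | rfl | rfl <;> decide +kernel

theorem len_test {F : Type*} [Field F] (D : ChevalleyDatum)
    (hD : D ∈ [chevG2, chevB2, chevD4, chevF4, chevE6, chevE7, chevE8])
    (π : Equiv.Perm (Fin D.rank)) (hπ : D.IsDiagramSymmetry π)
    (hlen : ¬ ((∀ i : Fin D.rank, D.isLong (D.simple (π i)) = D.isLong (D.simple i)) ∨ (D = chevG2 ∧ ringChar F = 3) ∨ ((D = chevB2 ∨ D = chevF4) ∧ ringChar F = 2))) :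
    ∃ (i : Fin D.rank) (w : List (Fin D.rank)),
      (∀ t u : F, D.x F (D.simple i) t * D.x F (wact D (w.map fun k => k.val) (D.simple i)) u = D.x F (wact D (w.map fun k => k.val) (D.simple i)) u * D.x F (D.simple i) t) ∧
      D.x F (D.simple (π i)) 1 * D.x F (wact D (w.map fun k => (π k).val) (D.simple (π i))) 1 ≠ D.x F (wact D (w.map fun k => (π k).val) (D.simple (π i))) 1 * D.x F (D.simple (π i)) 1 := by
  rw [not_or, not_or, not_forall] at hlen
  obtain ⟨⟨i, hi⟩, hl2, hl3⟩ := hlen
  have hsl : D ∈ [chevD4, chevE6, chevE7, chevE8] → False := by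
    intro h
    apply hi
    rw [not_long_of_simplyLaced h _ (π i).isLt, not_long_of_simplyLaced h _ i.isLt]
  have hD' := hD
  simp only [List.mem_cons, List.not_mem_nil, or_false] at hD'
  rcases hD' with rfl | rfl | rfl | rfl | rfl | rfl | rfl
  · have hne : π i ≠ i := fun h => hi (by rw [h])
    obtain ⟨h0, h1⟩ := perm2_key π i hne
    have e0 : π ⟨0, by decide⟩ = ⟨1, by decide⟩ := h0
    have e1 : π ⟨1, by decide⟩ = ⟨0, by decide⟩ := h1
    have hc : ((3 : ℤ) : F) ≠ 0 := natCast_ne_zero_of_ringChar (p := 3) Nat.prime_three fun h => hl2 ⟨rfl, h⟩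
    refine ⟨⟨1, by decide⟩, [⟨1, by decide⟩, ⟨0, by decide⟩], ?_, ?_⟩
    · intro t u
      exact X_commute_of_terms hD (by decide +kernel) (by decide +kernel) (by decide +kernel) (by decide +kernel)
        (by decide +kernel) t u
    · simp only [List.map_cons, List.map_nil, e0, e1]
      exact X_not_commute_of_terms hD (k := 10) (c := 3) (by decide +kernel) (by decide +kernel)
        (by decide +kernel) (by decide +kernel) (by decide +kernel) (by decide +kernel) hc
  · have hne : π i ≠ i := fun h => hi (by rw [h])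
    obtain ⟨h0, h1⟩ := perm2_key π i hne
    have e0 : π ⟨0, by decide⟩ = ⟨1, by decide⟩ := h0
    have e1 : π ⟨1, by decide⟩ = ⟨0, by decide⟩ := h1
    have hc : ((2 : ℤ) : F) ≠ 0 := natCast_ne_zero_of_ringChar (p := 2) Nat.prime_two fun h => hl3 ⟨Or.inl rfl, h⟩
    refine ⟨⟨1, by decide⟩, [⟨0, by decide⟩], ?_, ?_⟩
    · intro t u
      exact X_commute_of_terms hD (by decide +kernel) (by decide +kernel) (by decide +kernel) (by decide +kernel)
        (by decide +kernel) t u
    · simp only [List.map_cons, List.map_nil, e0, e1]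
      exact X_not_commute_of_terms hD (k := 7) (c := 2) (by decide +kernel) (by decide +kernel)
        (by decide +kernel) (by decide +kernel) (by decide +kernel) (by decide +kernel) hc
  · exact (hsl (by simp)).elim
  · obtain ⟨h1, h2⟩ := permF4_key π hπ ⟨i, hi⟩
    have e1 : π ⟨1, by decide⟩ = ⟨2, by decide⟩ := h1
    have e2 : π ⟨2, by decide⟩ = ⟨1, by decide⟩ := h2
    have hc : ((2 : ℤ) : F) ≠ 0 := natCast_ne_zero_of_ringChar (p := 2) Nat.prime_two fun h => hl3 ⟨Or.inr rfl, h⟩
    refine ⟨⟨2, by decide⟩, [⟨1, by decide⟩], ?_, ?_⟩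
    · intro t u
      exact X_commute_of_terms hD (by decide +kernel) (by decide +kernel) (by decide +kernel) (by decide +kernel)
        (by decide +kernel) t u
    · simp only [List.map_cons, List.map_nil, e1, e2]
      exact X_not_commute_of_terms hD (k := 30) (c := 2) (by decide +kernel) (by decide +kernel)
        (by decide +kernel) (by decide +kernel) (by decide +kernel) (by decide +kernel) hc
  · exact (hsl (by simp)).elim
  · exact (hsl (by simp)).elim
  · exact (hsl (by simp)).elim

/-- a spanning tree of the Dynkin diagram along edges with a Cartan integer `-1`. -/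
def treeChk (D : ChevalleyDatum) (par dep : List ℕ) : Bool :=
  (List.range D.rank).all fun j => (j == 0) ||
    (decide (par.getD j 0 < D.rank) && decide (dep.getD (par.getD j 0) 0 < dep.getD j 0) &&
      (D.cartan (par.getD j 0) (D.simple j) == -1 || D.cartan j (D.simple (par.getD j 0)) == -1))

theorem conn_of_tree (D : ChevalleyDatum) {par dep : List ℕ} (hT : treeChk D par dep = true) (h0 : 0 < D.rank)
    (R : Fin D.rank → Fin D.rank → Prop) (hrefl : ∀ i, R i i) (hsymm : ∀ i j, R i j → R j i)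
    (htrans : ∀ i j k, R i j → R j k → R i k)
    (h : ∀ i j : Fin D.rank, D.cartan i (D.simple j) = -1 → R i j) : ∀ i j, R i j := by
  have key : ∀ n : ℕ, ∀ j : Fin D.rank, dep.getD j 0 = n → R ⟨0, h0⟩ j := by
    intro n
    induction n using Nat.strong_induction_on with
    | _ n ih =>
      intro j hj
      by_cases hj0 : (j : ℕ) = 0
      · have : j = ⟨0, h0⟩ := Fin.ext hj0
        rw [this]
        exact hrefl _
      · unfold treeChk at hT
        rw [List.all_eq_true] at hT
        have h1 := hT j (List.mem_range.2 j.isLt)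
        simp only [Bool.or_eq_true, Bool.and_eq_true, beq_iff_eq, decide_eq_true_eq, hj0, false_or] at h1
        obtain ⟨⟨h2, h3⟩, h4⟩ := h1
        have h5 := ih _ (hj ▸ h3) ⟨par.getD j 0, h2⟩ rfl
        refine htrans _ _ _ h5 ?_
        rcases h4 with h4 | h4
        · exact h ⟨par.getD j 0, h2⟩ j h4
        · exact hsymm _ _ (h j ⟨par.getD j 0, h2⟩ h4)
  intro i j
  exact htrans _ _ _ (hsymm _ _ (key _ i rfl)) (key _ j rfl)

theorem cartan_conn (D : ChevalleyDatum) (hD : D ∈ [chevG2, chevB2, chevD4, chevF4, chevE6, chevE7, chevE8])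
    (R : Fin D.rank → Fin D.rank → Prop) (hrefl : ∀ i, R i i) (hsymm : ∀ i j, R i j → R j i)
    (htrans : ∀ i j k, R i j → R j k → R i k)
    (h : ∀ i j : Fin D.rank, D.cartan i (D.simple j) = -1 → R i j) : ∀ i j, R i j := by
  simp only [List.mem_cons, List.not_mem_nil, or_false] at hD
  rcases hD with rfl | rfl | rfl | rfl | rfl | rfl | rfl
  · exact conn_of_tree _ (par := [0, 0]) (dep := [0, 1]) (by decide +kernel) (by decide) R hrefl hsymm htrans h
  · exact conn_of_tree _ (par := [0, 0]) (dep := [0, 1]) (by decide +kernel) (by decide) R hrefl hsymm htrans h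
  · exact conn_of_tree _ (par := [0, 0, 1, 1]) (dep := [0, 1, 2, 2]) (by decide +kernel) (by decide) R hrefl hsymm
      htrans h
  · exact conn_of_tree _ (par := [0, 0, 1, 2]) (dep := [0, 1, 2, 3]) (by decide +kernel) (by decide) R hrefl hsymm
      htrans h
  · exact conn_of_tree _ (par := [0, 3, 0, 2, 3, 4]) (dep := [0, 3, 1, 2, 3, 4]) (by decide +kernel) (by decide) R
      hrefl hsymm htrans h
  · exact conn_of_tree _ (par := [0, 3, 0, 2, 3, 4, 5]) (dep := [0, 3, 1, 2, 3, 4, 5]) (by decide +kernel)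
      (by decide) R hrefl hsymm htrans h
  · exact conn_of_tree _ (par := [0, 3, 0, 2, 3, 4, 5, 6]) (dep := [0, 3, 1, 2, 3, 4, 5, 6]) (by decide +kernel)
      (by decide) R hrefl hsymm htrans h

end Cfsg.Agent.Lib.Helper22
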