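import Cfsg.Agent.Lib.Helper23.AutStd
import Cfsg.Agent.Lib.Helper22.AutD2
import Cfsg.Agent.S1080
import Cfsg.Agent.S2157

/-!
# Calculus of the standard automorphisms `x_{±p_i}(t) ↦ x_{±p_{π i}}(c^{±1} σ(t)^e)`
-/

set_option autoImplicit false

namespace Cfsg.Agent.Lib.Helper22
open Cfsg.Lie Matrix Cfsg.Agent.Lib.Helper23

variable {D : ChevalleyDatum} {F : Type*} [Field F]

/-- `r` or `-r`. -/
def sgR (D : ChevalleyDatum) (s : Bool) (r : ℕ) : ℕ := bif s then r else D.neg r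

/-- `c` or `c⁻¹`. -/
def sgU (s : Bool) (c : Fˣ) : Fˣ := bif s then c else c⁻¹

theorem sgU_mul (s : Bool) (a c : Fˣ) : sgU s (a * c) = sgU s a * sgU s c := by
  cases s
  · exact mul_inv a c
  · rfl

theorem sgU_pow (s : Bool) (a : Fˣ) (n : ℕ) : sgU s (a ^ n) = sgU s a ^ n := by
  cases s
  · exact (inv_pow a n).symm
  · rfl

theorem sgU_one (s : Bool) : sgU s (1 : Fˣ) = 1 := by
  cases s
  · exact inv_one
  · rfl

/-- the action of a field automorphism on the units. -/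
def uS (σ : F ≃+* F) : Fˣ →* Fˣ := Units.map (σ : F →* F)

theorem coe_uS (σ : F ≃+* F) (c : Fˣ) : ((uS σ c : Fˣ) : F) = σ c := rfl

theorem sgU_uS (s : Bool) (σ : F ≃+* F) (a : Fˣ) : sgU s (uS σ a) = uS σ (sgU s a) := by
  cases s
  · exact (map_inv (uS σ) a).symm
  · rfl

theorem uS_one (c : Fˣ) : uS (1 : F ≃+* F) c = c := by
  apply Units.ext
  rfl

theorem isStd_iff (hA : AddFact D F) (θ : ↥(D.group F) ≃* ↥(D.group F)) (c : Fin D.rank → Fˣ)
    (π : Equiv.Perm (Fin D.rank)) (σ : F ≃+* F) :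
    IsStd hA θ c π σ ↔ ∀ (s : Bool) (i : Fin D.rank) (t : F),
      θ (hA.XG (sgR D s (D.simple i)) t) = hA.XG (sgR D s (D.simple (π i)))
        ((sgU s (c (π i)) : F) * σ t ^ D.graphExp (ringChar F) i (π i)) := by
  constructor
  · intro h s i t
    cases s
    · exact (h i t).2
    · exact (h i t).1
  · intro h i t
    exact ⟨h true i t, h false i t⟩

theorem graphExp_self (D : ChevalleyDatum) (c i : ℕ) : D.graphExp c i i = 1 := by
  unfold ChevalleyDatum.graphExp
  cases D.isLong (D.simple i) <;> rfl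

/-- composition of standard automorphisms, when the exponents multiply. -/
theorem isStd_mul {hA : AddFact D F} {θ θ' : MulAut ↥(D.group F)} {c c' : Fin D.rank → Fˣ}
    {π π' : Equiv.Perm (Fin D.rank)} {σ σ' : F ≃+* F} (h : IsStd hA θ c π σ) (h' : IsStd hA θ' c' π' σ')
    (he : ∀ i : Fin D.rank, D.graphExp (ringChar F) i (π' i) * D.graphExp (ringChar F) (π' i) (π (π' i)) =
      D.graphExp (ringChar F) i (π (π' i))) :
    IsStd hA (θ * θ') (fun j => c j * uS σ (c' (π.symm j)) ^ D.graphExp (ringChar F) (π.symm j) j)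
      (π * π') (σ * σ') := by
  rw [isStd_iff] at *
  intro s i t
  show θ (θ' _) = _
  rw [h' s i t, h s (π' i) _]
  have e1 : (π * π') i = π (π' i) := rfl
  have e2 : (σ * σ') t = σ (σ' t) := rfl
  simp only [e1, e2, Equiv.symm_apply_apply, sgU_mul, sgU_pow, sgU_uS, Units.val_mul, Units.val_pow_eq_pow_val,
    coe_uS, map_mul, map_pow, mul_pow, ← he i, pow_mul, mul_assoc]

theorem isStd_one (hA : AddFact D F) : IsStd hA (1 : MulAut ↥(D.group F)) 1 1 1 := by
  rw [isStd_iff]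
  intro s i t
  show hA.XG _ t = hA.XG _ (((sgU s 1 : Fˣ) : F) * t ^ D.graphExp (ringChar F) i i)
  rw [graphExp_self, sgU_one, Units.val_one, one_mul, pow_one]
  rfl

/-- left multiplication by a standard automorphism with trivial permutation. -/
theorem isStd_mul_left {hA : AddFact D F} {θ θ' : MulAut ↥(D.group F)} {c c' : Fin D.rank → Fˣ}
    {π' : Equiv.Perm (Fin D.rank)} {σ σ' : F ≃+* F} (h : IsStd hA θ c 1 σ) (h' : IsStd hA θ' c' π' σ') :
    IsStd hA (θ * θ') (fun j => c j * uS σ (c' j)) π' (σ * σ') := by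
  have h1 := isStd_mul h h' (fun i => by
    show _ * D.graphExp (ringChar F) (π' i) (π' i) = D.graphExp (ringChar F) i (π' i)
    rw [graphExp_self, mul_one])
  rw [one_mul] at h1
  convert h1 using 2
  rename_i j
  show _ = c j * uS σ (c' j) ^ D.graphExp (ringChar F) j j
  rw [graphExp_self, pow_one]

/-- right multiplication by a standard automorphism with trivial permutation. -/
theorem isStd_mul_right {hA : AddFact D F} {θ θ' : MulAut ↥(D.group F)} {c c' : Fin D.rank → Fˣ}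
    {π : Equiv.Perm (Fin D.rank)} {σ σ' : F ≃+* F} (h : IsStd hA θ c π σ) (h' : IsStd hA θ' c' 1 σ') :
    IsStd hA (θ * θ') (fun j => c j * uS σ (c' (π.symm j)) ^ D.graphExp (ringChar F) (π.symm j) j) π (σ * σ') := by
  have h1 := isStd_mul h h' (fun i => by
    show D.graphExp (ringChar F) i i * D.graphExp (ringChar F) i (π i) = D.graphExp (ringChar F) i (π i)
    rw [graphExp_self, one_mul])
  rwa [mul_one] at h1

theorem eq_XG_iff (hA : AddFact D F) (g : ↥(D.group F)) (r : ℕ) (t : F) :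
    ((g : GL D.Idx F) : Matrix D.Idx D.Idx F) = D.x F r t ↔ g = hA.XG r t :=
  ⟨fun h => Subtype.ext (Units.ext (by rw [h]; exact (hA.coe_X r t).symm)),
    fun h => by rw [h]; exact hA.coe_X r t⟩

section types
variable (hD : D ∈ [chevG2, chevB2, chevD4, chevF4, chevE6, chevE7, chevE8])
include hD

theorem sgR_lt (s : Bool) {r : ℕ} (hr : r < D.nroots) : sgR D s r < D.nroots := by
  cases s
  · exact (rootFacts_of_mem hD).neg_lt hr
  · exact hr

theorem isStd_of_diag (hA : AddFact D F) {d : ↥(D.group F) ≃* ↥(D.group F)} {χ : ℕ → Fˣ}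
    (hχ : D.IsRootCharacter χ) (hd : ∀ g : ↥(D.group F), ((d g : GL D.Idx F) : Matrix D.Idx D.Idx F) =
      D.charDiag F χ * ((g : GL D.Idx F) : Matrix D.Idx D.Idx F) * D.charDiag F (fun r => (χ r)⁻¹)) :
    IsStd hA d (fun j => χ (D.simple j)) 1 1 := by
  have hR := rootFacts_of_mem hD
  rw [isStd_iff]
  intro s i t
  rw [← eq_XG_iff hA, hd]
  have h1 : (((hA.XG (sgR D s (D.simple i)) t : ↥(D.group F)) : GL D.Idx F) : Matrix D.Idx D.Idx F) =
      D.x F (sgR D s (D.simple i)) t := hA.coe_X _ _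
  rw [h1, Cfsg.Agent.S2157.result D hD χ hχ _ (sgR_lt hD s (hR.simple_lt i.2)) t]
  show _ = D.x F (sgR D s (D.simple i)) (((sgU s (χ (D.simple i)) : Fˣ) : F) * t ^ D.graphExp (ringChar F) i i)
  rw [graphExp_self, pow_one]
  congr 2
  cases s
  · exact congrArg _ (hχ.1 _ (hR.simple_lt i.2))
  · rfl

theorem isStd_of_field (hA : AddFact D F) {f : ↥(D.group F) ≃* ↥(D.group F)} {σ : F ≃+* F}
    (hf : ∀ (g : ↥(D.group F)) (r : ℕ) (t : F), r < D.nroots →
      ((g : GL D.Idx F) : Matrix D.Idx D.Idx F) = D.x F r t →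
      ((f g : GL D.Idx F) : Matrix D.Idx D.Idx F) = D.x F r (σ t)) :
    IsStd hA f 1 1 σ := by
  have hR := rootFacts_of_mem hD
  rw [isStd_iff]
  intro s i t
  rw [← eq_XG_iff hA, hf _ _ t (sgR_lt hD s (hR.simple_lt i.2)) (hA.coe_X _ _)]
  show _ = D.x F (sgR D s (D.simple i)) (((sgU s 1 : Fˣ) : F) * σ t ^ D.graphExp (ringChar F) i i)
  rw [graphExp_self, pow_one, sgU_one, Units.val_one, one_mul]

omit hD in
theorem isStd_of_graph (hA : AddFact D F) {g : ↥(D.group F) ≃* ↥(D.group F)} {π : Equiv.Perm (Fin D.rank)}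
    (hg : ∀ (y : ↥(D.group F)) (i : Fin D.rank) (t : F),
      (((y : GL D.Idx F) : Matrix D.Idx D.Idx F) = D.x F (D.simple i) t →
        ((g y : GL D.Idx F) : Matrix D.Idx D.Idx F) =
          D.x F (D.simple (π i)) (t ^ D.graphExp (ringChar F) i (π i))) ∧
      (((y : GL D.Idx F) : Matrix D.Idx D.Idx F) = D.x F (D.neg (D.simple i)) t →
        ((g y : GL D.Idx F) : Matrix D.Idx D.Idx F) =
          D.x F (D.neg (D.simple (π i))) (t ^ D.graphExp (ringChar F) i (π i)))) :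
    IsStd hA g 1 π 1 := by
  intro i t
  constructor
  · rw [← eq_XG_iff hA, (hg _ i t).1 (hA.coe_X _ _)]
    show _ = D.x F _ (((1 : Fˣ) : F) * t ^ _)
    rw [Units.val_one, one_mul]
  · rw [← eq_XG_iff hA, (hg _ i t).2 (hA.coe_X _ _)]
    show _ = D.x F _ ((((1 : Fˣ)⁻¹ : Fˣ) : F) * t ^ _)
    rw [inv_one, Units.val_one, one_mul]

/-- existence of the standard automorphisms with trivial permutation. -/
theorem exists_isStd (hA : AddFact D F) (c : Fin D.rank → Fˣ) (σ : F ≃+* F) :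
    ∃ (d f : MulAut ↥(D.group F)), D.IsDiagonalAut d ∧ D.IsFieldAut f ∧ IsStd hA d c 1 1 ∧ IsStd hA f 1 1 σ ∧
      IsStd hA (d * f) c 1 σ := by
  obtain ⟨χ, d, hχ, hc, hd⟩ := exists_diagAut (F := F) D hD c
  obtain ⟨f, hf⟩ := Cfsg.Agent.S1080.result D hD σ
  have h1 := isStd_of_diag hD hA hχ hd
  have e1 : (fun j : Fin D.rank => χ (D.simple j)) = c := funext hc
  rw [e1] at h1
  have h2 := isStd_of_field hD hA hf
  refine ⟨d, f, ⟨χ, hχ, hd⟩, ⟨σ, hf⟩, h1, h2, ?_⟩
  have h3 := isStd_mul_left (θ := d) (θ' := f) h1 h2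
  rw [one_mul] at h3
  convert h3 using 2
  rename_i j
  show c j = c j * uS 1 1
  rw [map_one, mul_one]

end types

end Cfsg.Agent.Lib.Helper22
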