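import Cfsg.Agent.Lib.Helper22.AutO1
import Cfsg.Prelude.Def_KGroupFacts

/-!
# The subgroups of `Out` generated by the diagonal and field automorphisms
-/

set_option autoImplicit false

namespace Cfsg.Agent.Lib.Helper22
open Cfsg.Lie Matrix Cfsg.Agent.Lib.Helper23

variable {D : ChevalleyDatum} {F : Type*} [Field F]

/-- the automorphism group of a finite field is generated by one element. -/
theorem ringAut_gen [Finite F] : ∃ σ₀ : F ≃+* F, ∀ σ : F ≃+* F, ∃ k : ℕ, σ₀ ^ k = σ := by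
  classical
  let p := ringChar F
  have : Fact p.Prime := ⟨CharP.char_is_prime F p⟩
  have : CharP F p := ringChar.charP F
  let _ : Algebra (ZMod p) F := ZMod.algebra F p
  let φ := FiniteField.frobeniusAlgEquivOfAlgebraic (ZMod p) F
  refine ⟨φ.toRingEquiv, fun σ => ?_⟩
  let f : F ≃ₐ[ZMod p] F := AlgEquiv.ofRingEquiv (f := σ) (fun r => by
    have : (σ : F →+* F).comp (algebraMap (ZMod p) F) = algebraMap (ZMod p) F := Subsingleton.elim _ _
    exact DFunLike.congr_fun this r)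
  obtain ⟨n, hn⟩ := (FiniteField.bijective_frobeniusAlgEquivOfAlgebraic_pow (ZMod p) F).2 f
  refine ⟨n, ?_⟩
  have key : ∀ (k : ℕ) (t : F), ((φ.toRingEquiv : F ≃+* F) ^ k) t = (φ ^ k) t := by
    intro k
    induction k with
    | zero => intro t; rfl
    | succ k ih => intro t; rw [pow_succ, pow_succ]; exact ih _
  ext t
  have hn' : φ ^ (n : ℕ) = f := hn
  rw [key, hn']
  rfl

theorem ringAut_comm [Finite F] (σ σ' : F ≃+* F) : σ * σ' = σ' * σ := by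
  obtain ⟨σ₀, h⟩ := ringAut_gen (F := F)
  obtain ⟨k, rfl⟩ := h σ
  obtain ⟨l, rfl⟩ := h σ'
  rw [← pow_add, ← pow_add, add_comm]

section types
variable (hD : D ∈ [chevG2, chevB2, chevD4, chevF4, chevE6, chevE7, chevE8]) (b : Bundle D F)
include hD

theorem isStd_inv {θ : MulAut ↥(D.group F)} {c : Fin D.rank → Fˣ} {σ : F ≃+* F} (h : IsStd b.hA θ c 1 σ) :
    ∃ c₂, IsStd b.hA θ⁻¹ c₂ 1 σ⁻¹ := by
  obtain ⟨d, f, -, -, -, -, h1⟩ := exists_isStd hD b.hA (fun j => (uS σ⁻¹ (c j))⁻¹) σ⁻¹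
  have h2 := isStd_mul_left h1 h
  have e : (d * f) * θ = 1 := by
    refine b.isStd_unique h2 ?_
    convert isStd_one b.hA using 1
    · funext j
      exact inv_mul_cancel _
    · exact inv_mul_cancel σ
  have e2 : θ⁻¹ = d * f := (eq_inv_of_mul_eq_one_left e).symm
  exact ⟨_, e2 ▸ h1⟩

theorem isStd_conj [Finite F] {θ₀ θ : MulAut ↥(D.group F)} {c' c : Fin D.rank → Fˣ}
    {π : Equiv.Perm (Fin D.rank)} {σ' σ : F ≃+* F} (h₀ : IsStd b.hA θ₀ c' π σ') (h : IsStd b.hA θ c 1 σ) :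
    ∃ c'', IsStd b.hA (θ₀ * θ * θ₀⁻¹) c'' 1 σ := by
  have h1 := isStd_mul_right h₀ h
  obtain ⟨d, f, -, -, -, -, h2⟩ := exists_isStd hD b.hA
    (fun j => (c' j * uS σ' (c (π.symm j)) ^ D.graphExp (ringChar F) (π.symm j) j) * (uS σ (c' j))⁻¹) σ
  have h3 := isStd_mul_left h2 h₀
  have e : (d * f) * θ₀ = θ₀ * θ := by
    refine b.isStd_unique h3 ?_
    convert h1 using 1
    · funext j
      exact inv_mul_cancel_right _ _
    · exact ringAut_comm _ _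
  have e2 : θ₀ * θ * θ₀⁻¹ = d * f := by rw [← e]; group
  exact ⟨_, e2 ▸ h2⟩

/-- the standard automorphisms with trivial permutation and field automorphism in a given subgroup. -/
def stdSub (S : Subgroup (F ≃+* F)) : Subgroup (MulAut ↥(D.group F)) where
  carrier := {θ | ∃ c, ∃ σ ∈ S, IsStd b.hA θ c 1 σ}
  mul_mem' := by
    rintro θ θ' ⟨c, σ, hσ, h⟩ ⟨c', σ', hσ', h'⟩
    exact ⟨_, σ * σ', mul_mem hσ hσ', isStd_mul_left h h'⟩
  one_mem' := ⟨1, 1, one_mem _, isStd_one _⟩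
  inv_mem' := by
    rintro θ ⟨c, σ, hσ, h⟩
    obtain ⟨c₂, h₂⟩ := isStd_inv hD b h
    exact ⟨c₂, σ⁻¹, inv_mem hσ, h₂⟩

theorem mem_stdSub {S : Subgroup (F ≃+* F)} {θ : MulAut ↥(D.group F)} :
    θ ∈ stdSub hD b S ↔ ∃ c, ∃ σ ∈ S, IsStd b.hA θ c 1 σ := Iff.rfl

theorem closure_diag : Subgroup.closure {φ : MulAut ↥(D.group F) | D.IsDiagonalAut φ} = stdSub hD b ⊥ := by
  have : {φ : MulAut ↥(D.group F) | D.IsDiagonalAut φ} = (stdSub hD b ⊥ : Set (MulAut ↥(D.group F))) := by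
    ext θ
    constructor
    · rintro ⟨χ, hχ, hd⟩
      exact ⟨_, 1, one_mem _, isStd_of_diag hD b.hA hχ hd⟩
    · rintro ⟨c, σ, hσ, h⟩
      rw [Subgroup.mem_bot] at hσ
      subst hσ
      obtain ⟨d, f, hd, -, h1, -, -⟩ := exists_isStd hD b.hA c 1
      rw [b.isStd_unique h h1]
      exact hd
  rw [this, Subgroup.closure_eq]

theorem closure_diag_sup_field : Subgroup.closure {φ : MulAut ↥(D.group F) | D.IsDiagonalAut φ} ⊔
    Subgroup.closure {φ : MulAut ↥(D.group F) | D.IsFieldAut φ} = stdSub hD b ⊤ := by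
  apply le_antisymm
  · apply sup_le
    · rw [Subgroup.closure_le]
      rintro θ ⟨χ, hχ, hd⟩
      exact ⟨_, 1, Subgroup.mem_top _, isStd_of_diag hD b.hA hχ hd⟩
    · rw [Subgroup.closure_le]
      rintro θ ⟨σ, hf⟩
      exact ⟨_, σ, Subgroup.mem_top _, isStd_of_field hD b.hA hf⟩
  · rintro θ ⟨c, σ, -, h⟩
    obtain ⟨d, f, hd, hf, -, -, h1⟩ := exists_isStd hD b.hA c σ
    rw [b.isStd_unique h h1]
    exact mul_mem (Subgroup.mem_sup_left (Subgroup.subset_closure hd))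
      (Subgroup.mem_sup_right (Subgroup.subset_closure hf))

theorem closure_field [Finite F] : ∃ φ₀ : MulAut ↥(D.group F),
    Subgroup.closure {φ : MulAut ↥(D.group F) | D.IsFieldAut φ} = Subgroup.zpowers φ₀ := by
  have b := bundle_of_mem F hD
  obtain ⟨σ₀, hσ₀⟩ := ringAut_gen (F := F)
  obtain ⟨-, φ₀, -, hf, -, h0, -⟩ := exists_isStd hD b.hA 1 σ₀
  refine ⟨φ₀, le_antisymm ?_ ?_⟩
  · rw [Subgroup.closure_le]
    rintro θ ⟨σ, hθ⟩
    obtain ⟨k, rfl⟩ := hσ₀ σ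
    have key : ∀ k : ℕ, IsStd b.hA (φ₀ ^ k) 1 1 (σ₀ ^ k) := by
      intro k
      induction k with
      | zero => exact isStd_one _
      | succ k ih =>
        rw [pow_succ, pow_succ]
        convert isStd_mul_left ih h0 using 1
        funext j
        show (1 : Fˣ) = 1 * uS _ 1
        rw [map_one, mul_one]
    rw [b.isStd_unique (isStd_of_field hD b.hA hθ) (key k)]
    exact Subgroup.npow_mem_zpowers _ _
  · rw [Subgroup.zpowers_le]
    exact Subgroup.subset_closure hf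

theorem stdSub_bot_comm (θ θ' : MulAut ↥(D.group F)) (h : θ ∈ stdSub hD b ⊥) (h' : θ' ∈ stdSub hD b ⊥) :
    θ * θ' = θ' * θ := by
  obtain ⟨c, σ, hσ, h⟩ := h
  obtain ⟨c', σ', hσ', h'⟩ := h'
  rw [Subgroup.mem_bot] at hσ hσ'
  subst hσ
  subst hσ'
  refine b.isStd_unique (isStd_mul_left h h') ?_
  convert isStd_mul_left h' h using 1
  funext j
  rw [uS_one, uS_one, mul_comm]

/-- the decomposition of S2156, in terms of standard automorphisms. -/
def Stein (hA : AddFact D F) : Prop :=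
  ∀ θ : MulAut ↥(D.group F), ∃ (x : ↥(D.group F)) (d g f : MulAut ↥(D.group F)) (c : Fin D.rank → Fˣ)
    (π : Equiv.Perm (Fin D.rank)) (σ : F ≃+* F), IsStd hA d c 1 1 ∧ D.IsDiagramSymmetry π ∧ IsStd hA g 1 π 1 ∧
      IsStd hA f 1 1 σ ∧ θ = MulAut.conj x * (d * g * f)

theorem stein_of (hS : ∀ θ : ↥(D.group F) ≃* ↥(D.group F), ∃ (x : ↥(D.group F)) (d g f : ↥(D.group F) ≃* ↥(D.group F)),
      D.IsDiagonalAut d ∧ D.IsGraphAut g ∧ D.IsFieldAut f ∧ ∀ y : ↥(D.group F), θ y = x * d (g (f y)) * x⁻¹) :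
    Stein b.hA := by
  intro θ
  obtain ⟨x, d, g, f, ⟨χ, hχ, hd⟩, ⟨π, hπ, hg⟩, ⟨σ, hf⟩, h⟩ := hS θ
  exact ⟨x, d, g, f, _, π, σ, isStd_of_diag hD b.hA hχ hd, hπ, isStd_of_graph b.hA hg,
    isStd_of_field hD b.hA hf, MulEquiv.ext h⟩

omit hD in
theorem mk_conj (x : ↥(D.group F)) : QuotientGroup.mk' (Cfsg.Inn ↥(D.group F)) (MulAut.conj x) = 1 :=
  (QuotientGroup.eq_one_iff (N := Cfsg.Inn ↥(D.group F)) (MulAut.conj x)).2 ⟨x, rfl⟩

theorem map_stdSub_normal [Finite F] (hS : Stein b.hA) (S : Subgroup (F ≃+* F)) :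
    ((stdSub hD b S).map (QuotientGroup.mk' (Cfsg.Inn ↥(D.group F)))).Normal := by
  constructor
  rintro _ ⟨s, ⟨c, σ, hσ, hs⟩, rfl⟩ o
  obtain ⟨θ, rfl⟩ := QuotientGroup.mk'_surjective _ o
  obtain ⟨x, d, g, f, c', π, σ', hd, hπ, hg, hf, rfl⟩ := hS θ
  have h₀ := isStd_mul_right (isStd_mul_left hd hg) hf
  obtain ⟨c'', h''⟩ := isStd_conj hD b h₀ hs
  refine ⟨(d * g * f) * s * (d * g * f)⁻¹, ⟨c'', σ, hσ, h''⟩, ?_⟩
  simp only [map_mul, map_inv, mk_conj, one_mul]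

end types

end Cfsg.Agent.Lib.Helper22
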