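import Cfsg.Agent.Lib.Helper22.AutO2
import Cfsg.Agent.Lib.Helper22.ChevGr5
import Cfsg.Agent.Lib.Helper23.AutSym
import Cfsg.Agent.Lib.Helper23.AutG
import Cfsg.Agent.Lib.Helper45.AutOut2

/-!
# The index of `D̄F̄` in `Out`
-/

set_option autoImplicit false
set_option maxRecDepth 100000

namespace Cfsg.Agent.Lib.Helper22
open Cfsg.Lie Matrix Cfsg.Agent.Lib.Helper23

variable {D : ChevalleyDatum} {F : Type*} [Field F]

section types
variable (hD : D ∈ [chevG2, chevB2, chevD4, chevF4, chevE6, chevE7, chevE8]) (b : Bundle D F)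
include hD

/-- `D̄F̄`. -/
noncomputable def outDF : Subgroup (Cfsg.Out ↥(D.group F)) :=
  (stdSub hD b ⊤).map (QuotientGroup.mk' (Cfsg.Inn ↥(D.group F)))

theorem mk_mem_outDF {θ : MulAut ↥(D.group F)} {c : Fin D.rank → Fˣ} {σ : F ≃+* F} (h : IsStd b.hA θ c 1 σ) :
    QuotientGroup.mk' (Cfsg.Inn ↥(D.group F)) θ ∈ outDF hD b :=
  ⟨θ, ⟨c, σ, Subgroup.mem_top _, h⟩, rfl⟩

theorem index_outDF_le [Finite F] (hS : Stein b.hA) :
    (outDF hD b).index ≤ Nat.card {π : Equiv.Perm (Fin D.rank) // D.IsDiagramSymmetry π} := by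
  classical
  have hN : (outDF hD b).Normal := map_stdSub_normal hD b hS ⊤
  let Ψ : {π : Equiv.Perm (Fin D.rank) // D.IsDiagramSymmetry π} → Cfsg.Out ↥(D.group F) ⧸ outDF hD b :=
    fun π => if h : ∃ g : MulAut ↥(D.group F), IsStd b.hA g 1 π.1 1 then
      QuotientGroup.mk' (outDF hD b) (QuotientGroup.mk' (Cfsg.Inn ↥(D.group F)) (Classical.choose h)) else 1
  apply Nat.card_le_card_of_surjective Ψ
  intro o
  obtain ⟨o', rfl⟩ := QuotientGroup.mk'_surjective _ o
  obtain ⟨θ, rfl⟩ := QuotientGroup.mk'_surjective _ o'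
  obtain ⟨x, d, g, f, c, π, σ, hd, hπ, hg, hf, rfl⟩ := hS θ
  refine ⟨⟨π, hπ⟩, ?_⟩
  have h : ∃ g : MulAut ↥(D.group F), IsStd b.hA g 1 π 1 := ⟨g, hg⟩
  have e1 : Classical.choose h = g := b.isStd_unique (Classical.choose_spec h) hg
  show (if h : ∃ g : MulAut ↥(D.group F), IsStd b.hA g 1 π 1 then
      QuotientGroup.mk' (outDF hD b) (QuotientGroup.mk' (Cfsg.Inn ↥(D.group F)) (Classical.choose h)) else 1) = _
  rw [dif_pos h, e1]
  have h1 : QuotientGroup.mk' (outDF hD b) (QuotientGroup.mk' (Cfsg.Inn ↥(D.group F)) d) = 1 :=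
    (QuotientGroup.eq_one_iff _).2 (mk_mem_outDF hD b hd)
  have h2 : QuotientGroup.mk' (outDF hD b) (QuotientGroup.mk' (Cfsg.Inn ↥(D.group F)) f) = 1 :=
    (QuotientGroup.eq_one_iff _).2 (mk_mem_outDF hD b hf)
  simp only [map_mul, mk_conj, h1, h2, one_mul, mul_one, map_one]

theorem posPres_of_isStd [Finite F] {θ : MulAut ↥(D.group F)} {c : Fin D.rank → Fˣ}
    {π : Equiv.Perm (Fin D.rank)} {σ : F ≃+* F} (h : IsStd b.hA θ c π σ) : PosPres θ := by
  apply Cfsg.Agent.Lib.Helper45.posPres_of_perm D hD b.hA θ π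
  · intro i t
    have h1 := (h i t).1
    have h2 : θ ⟨b.hA.X (D.simple i) t, b.hA.X_mem_group _ _⟩ = _ := h1
    rw [h2]
    exact b.hA.X_mem_rootSubgroup _ _
  · intro i t
    have h1 := (h i t).2
    have h2 : θ ⟨b.hA.X (D.neg (D.simple i)) t, b.hA.X_mem_group _ _⟩ = _ := h1
    rw [h2]
    exact b.hA.X_mem_rootSubgroup _ _

/-- rigidity: the permutation of a standard automorphism is determined by its class modulo `D̄F̄`. -/
theorem perm_eq_of_mem [Finite F] (hrk : 0 < D.rank) (hsi : ∀ i j : Fin D.rank, D.simple i = D.simple j → i = j)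
    {θ θ' : MulAut ↥(D.group F)} {c c' : Fin D.rank → Fˣ}
    {π π' : Equiv.Perm (Fin D.rank)} {σ σ' : F ≃+* F} (h : IsStd b.hA θ c π σ) (h' : IsStd b.hA θ' c' π' σ')
    (e : (QuotientGroup.mk' (Cfsg.Inn ↥(D.group F)) θ)⁻¹ * QuotientGroup.mk' (Cfsg.Inn ↥(D.group F)) θ' ∈
      outDF hD b) : π' = π := by
  obtain ⟨s, ⟨cs, σs, -, hs⟩, e1⟩ := e
  have e2 : QuotientGroup.mk' (Cfsg.Inn ↥(D.group F)) (θ * s) = QuotientGroup.mk' (Cfsg.Inn ↥(D.group F)) θ' := by
    rw [map_mul, e1, mul_inv_cancel_left]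
  obtain ⟨z, hz⟩ := QuotientGroup.eq.1 e2
  have h1 := isStd_mul_right h hs
  have hx : ∀ y, θ' y = (θ * s) z * (θ * s) y * ((θ * s) z)⁻¹ := by
    intro y
    have e3 : θ' = (θ * s) * MulAut.conj z := by rw [hz]; group
    have e4 := DFunLike.congr_fun e3 y
    rw [MulAut.mul_apply, MulAut.conj_apply, map_mul, map_mul, map_inv] at e4
    exact e4
  exact (b.isStd_fiber hrk hsi h1 h' (posPres_of_isStd hD b h1) (posPres_of_isStd hD b h') hx).2.1

end types

theorem card_symG2 : Nat.card {π : Equiv.Perm (Fin chevG2.rank) // chevG2.IsDiagramSymmetry π} ≤ 2 := by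
  rw [Nat.card_eq_fintype_card]
  decide +kernel

theorem card_symB2 : Nat.card {π : Equiv.Perm (Fin chevB2.rank) // chevB2.IsDiagramSymmetry π} ≤ 2 := by
  rw [Nat.card_eq_fintype_card]
  decide +kernel

theorem card_symD4 : Nat.card {π : Equiv.Perm (Fin chevD4.rank) // chevD4.IsDiagramSymmetry π} = 6 := by
  rw [Nat.card_eq_fintype_card]
  decide +kernel

theorem card_symF4 : Nat.card {π : Equiv.Perm (Fin chevF4.rank) // chevF4.IsDiagramSymmetry π} ≤ 2 := by
  rw [Nat.card_eq_fintype_card]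
  decide +kernel

theorem card_symE6 : Nat.card {π : Equiv.Perm (Fin chevE6.rank) // chevE6.IsDiagramSymmetry π} ≤ 2 := by
  rw [Nat.card_eq_fintype_card]
  decide +kernel

theorem card_symE7 : Nat.card {π : Equiv.Perm (Fin chevE7.rank) // chevE7.IsDiagramSymmetry π} ≤ 2 := by
  have : Subsingleton {π : Equiv.Perm (Fin chevE7.rank) // chevE7.IsDiagramSymmetry π} :=
    ⟨fun a c => Subtype.ext ((symE7 a.1 a.2).trans (symE7 c.1 c.2).symm)⟩
  exact (Finite.card_le_one_iff_subsingleton.2 this).trans (by norm_num)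

theorem card_symE8 : Nat.card {π : Equiv.Perm (Fin chevE8.rank) // chevE8.IsDiagramSymmetry π} ≤ 2 := by
  have : Subsingleton {π : Equiv.Perm (Fin chevE8.rank) // chevE8.IsDiagramSymmetry π} :=
    ⟨fun a c => Subtype.ext ((symE8 a.1 a.2).trans (symE8 c.1 c.2).symm)⟩
  exact (Finite.card_le_one_iff_subsingleton.2 this).trans (by norm_num)

end Cfsg.Agent.Lib.Helper22
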