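import Cfsg.Agent.Lib.Helper22.AutO3

/-!
# The structure of `Out` (S2159), from the decomposition of S2156
-/

set_option autoImplicit false
set_option maxRecDepth 100000

namespace Cfsg.Agent.Lib.Helper22
open Cfsg.Lie Matrix Cfsg.Agent.Lib.Helper23
open scoped commutatorElement

variable {D : ChevalleyDatum} {F : Type*} [Field F]

theorem finite_mulAut (G : Type*) [Group G] [Finite G] : Finite (MulAut G) :=
  Finite.of_injective (fun e : MulAut G => (e : G → G)) DFunLike.coe_injective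

theorem hD4mem : chevD4 ∈ [chevG2, chevB2, chevD4, chevF4, chevE6, chevE7, chevE8] := by simp

theorem notLongD4 : ∀ i : Fin chevD4.rank, chevD4.isLong (chevD4.simple i) = false := by decide +kernel

theorem graphExpD4 (c : ℕ) (i j : Fin chevD4.rank) : chevD4.graphExp c i j = 1 := by
  unfold ChevalleyDatum.graphExp
  rw [notLongD4 j]
  rfl

theorem exists_noncommD4 : ∃ π₁ π₂ : Equiv.Perm (Fin chevD4.rank), chevD4.IsDiagramSymmetry π₁ ∧
    chevD4.IsDiagramSymmetry π₂ ∧ π₁ * π₂ ≠ π₂ * π₁ := by decide +kernel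

theorem simpleInjD4 : ∀ i j : Fin chevD4.rank, chevD4.simple i = chevD4.simple j → i = j := by decide +kernel

theorem exists_graphD4 [Finite F] (b : Bundle chevD4 F) (π : Equiv.Perm (Fin chevD4.rank))
    (hπ : chevD4.IsDiagramSymmetry π) : ∃ g : MulAut ↥(chevD4.group F), IsStd b.hA g 1 π 1 := by
  obtain ⟨φ, hφ⟩ := exists_graphAut_of_symm (F := F) chevD4 hD4mem π hπ
    (Or.inl fun i => by rw [notLongD4, notLongD4])
  exact ⟨φ, isStd_of_graph b.hA hφ⟩

theorem index_D4 [Finite F] (b : Bundle chevD4 F) (hS : Stein b.hA) :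
    (outDF hD4mem b).index = 6 ∧ ¬ commutator (Cfsg.Out ↥(chevD4.group F)) ≤ outDF hD4mem b := by
  classical
  have hN : (outDF hD4mem b).Normal := map_stdSub_normal hD4mem b hS ⊤
  have hfin : Finite (MulAut ↥(chevD4.group F)) := finite_mulAut _
  constructor
  · apply le_antisymm
    · exact (index_outDF_le hD4mem b hS).trans card_symD4.le
    · rw [← card_symD4]
      choose g hg using fun π : {π : Equiv.Perm (Fin chevD4.rank) // chevD4.IsDiagramSymmetry π} =>
        exists_graphD4 b π.1 π.2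
      apply Nat.card_le_card_of_injective (fun π => (QuotientGroup.mk
        (QuotientGroup.mk' (Cfsg.Inn ↥(chevD4.group F)) (g π)) : Cfsg.Out ↥(chevD4.group F) ⧸ outDF hD4mem b))
      intro π π' e
      have e1 := QuotientGroup.eq.1 e
      exact Subtype.ext (perm_eq_of_mem hD4mem b (by decide) simpleInjD4 (hg π) (hg π') e1).symm
  · intro hc
    obtain ⟨π₁, π₂, h1, h2, hne⟩ := exists_noncommD4
    obtain ⟨g₁, hg₁⟩ := exists_graphD4 b π₁ h1
    obtain ⟨g₂, hg₂⟩ := exists_graphD4 b π₂ h2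
    apply hne
    have h12 := isStd_mul hg₁ hg₂ (fun i => by rw [graphExpD4, graphExpD4, graphExpD4])
    have h21 := isStd_mul hg₂ hg₁ (fun i => by rw [graphExpD4, graphExpD4, graphExpD4])
    apply perm_eq_of_mem hD4mem b (by decide) simpleInjD4 h21 h12
    apply hc
    have e : (QuotientGroup.mk' (Cfsg.Inn ↥(chevD4.group F)) (g₂ * g₁))⁻¹ *
        QuotientGroup.mk' (Cfsg.Inn ↥(chevD4.group F)) (g₁ * g₂) =
        ⁅(QuotientGroup.mk' (Cfsg.Inn ↥(chevD4.group F)) g₁)⁻¹,
          (QuotientGroup.mk' (Cfsg.Inn ↥(chevD4.group F)) g₂)⁻¹⁆ := by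
      rw [map_mul, map_mul, commutatorElement_def]
      group
    rw [e, commutator_def]
    exact Subgroup.commutator_mem_commutator (Subgroup.mem_top _) (Subgroup.mem_top _)

/-- S2159 from S2156. -/
theorem out_structure [Finite F] (hD : D ∈ [chevG2, chevB2, chevD4, chevF4, chevE6, chevE7, chevE8])
    (hS : ∀ θ : ↥(D.group F) ≃* ↥(D.group F), ∃ (x : ↥(D.group F)) (d g f : ↥(D.group F) ≃* ↥(D.group F)),
      D.IsDiagonalAut d ∧ D.IsGraphAut g ∧ D.IsFieldAut f ∧ ∀ y : ↥(D.group F), θ y = x * d (g (f y)) * x⁻¹)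
    (Dbar Fbar : Subgroup (Cfsg.Out ↥(D.group F)))
    (hDbar : Dbar = (Subgroup.closure {φ : MulAut ↥(D.group F) | D.IsDiagonalAut φ}).map
      (QuotientGroup.mk' (Cfsg.Inn ↥(D.group F))))
    (hFbar : Fbar = (Subgroup.closure {φ : MulAut ↥(D.group F) | D.IsFieldAut φ}).map
      (QuotientGroup.mk' (Cfsg.Inn ↥(D.group F)))) :
    Dbar.Normal ∧ IsMulCommutative ↥Dbar ∧ IsCyclic ↥Fbar ∧ (Dbar ⊔ Fbar).Normal ∧
      ((Dbar ⊔ Fbar).index = 1 ∨ (Dbar ⊔ Fbar).index = 2 ∨
        ((Dbar ⊔ Fbar).index = 6 ∧ ¬ commutator (Cfsg.Out ↥(D.group F)) ≤ Dbar ⊔ Fbar)) := by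
  have b := bundle_of_mem F hD
  have hSt : Stein b.hA := stein_of hD b hS
  have hsup : Dbar ⊔ Fbar = outDF hD b := by
    rw [hDbar, hFbar, ← Subgroup.map_sup, closure_diag_sup_field hD b]
    rfl
  rw [closure_diag hD b] at hDbar
  obtain ⟨φ₀, hφ₀⟩ := closure_field (F := F) hD
  rw [hφ₀, MonoidHom.map_zpowers] at hFbar
  have hfin : Finite (MulAut ↥(D.group F)) := finite_mulAut _
  refine ⟨?_, ?_, ?_, ?_, ?_⟩
  · rw [hDbar]
    exact map_stdSub_normal hD b hSt ⊥
  · subst hDbar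
    refine ⟨⟨?_⟩⟩
    rintro ⟨_, ⟨d, hd, rfl⟩⟩ ⟨_, ⟨d', hd', rfl⟩⟩
    apply Subtype.ext
    show QuotientGroup.mk' _ d * QuotientGroup.mk' _ d' = QuotientGroup.mk' _ d' * QuotientGroup.mk' _ d
    rw [← map_mul, ← map_mul, stdSub_bot_comm hD b d d' hd hd']
  · rw [hFbar]
    infer_instance
  · rw [hsup]
    exact map_stdSub_normal hD b hSt ⊤
  · rw [hsup]
    have h0 : (outDF hD b).index ≠ 0 := Subgroup.index_ne_zero_of_finite
    have hle := index_outDF_le hD b hSt
    have fin2 : Nat.card {π : Equiv.Perm (Fin D.rank) // D.IsDiagramSymmetry π} ≤ 2 →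
        (outDF hD b).index = 1 ∨ (outDF hD b).index = 2 ∨
        ((outDF hD b).index = 6 ∧ ¬ commutator (Cfsg.Out ↥(D.group F)) ≤ outDF hD b) := by
      intro h2
      have : (outDF hD b).index ≤ 2 := hle.trans h2
      omega
    have hD' := hD
    simp only [List.mem_cons, List.not_mem_nil, or_false] at hD'
    rcases hD' with rfl | rfl | rfl | rfl | rfl | rfl | rfl
    · exact fin2 card_symG2
    · exact fin2 card_symB2
    · exact Or.inr (Or.inr (index_D4 b hSt))
    · exact fin2 card_symF4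
    · exact fin2 card_symE6
    · exact fin2 card_symE7
    · exact fin2 card_symE8

end Cfsg.Agent.Lib.Helper22
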