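import Cfsg.Agent.Lib.Helper22.Fold9
import Cfsg.Agent.Lib.Helper22.FoldTabD4
import Cfsg.Agent.Lib.Helper22.ChevGr5
import Cfsg.Agent.Lib.Helper45.TwistD4
import Cfsg.Agent.Lib.Helper23.TwD4
import Cfsg.Agent.Lib.Helper23.AutG

/-! the fixed points of triality on `D₄(F)` are `G₂(F)` -/

set_option autoImplicit false
set_option maxRecDepth 1000000

namespace Cfsg.Agent.Lib.Helper22
open Cfsg.Lie Matrix Cfsg.Agent.Lib.Helper23 Cfsg.Agent.Lib.Helper45

theorem foldD4_O1 : ∀ J ∈ orbsD4, ∃ k < chevG2.rank, J = forbD4 k := by decide +kernel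
theorem foldD4_O2 : ∀ k < chevG2.rank, forbD4 k ∈ orbsD4 := by decide +kernel
theorem foldD4_cyc : ∀ J ∈ orbsD4, ∀ i ∈ J, ∀ j ∈ J, chevD4.simple j = chevD4.simple i ∨
    chevD4.simple j = rhoD4 (chevD4.simple i) ∨ chevD4.simple j = rhoD4 (rhoD4 (chevD4.simple i)) := by
  decide +kernel
theorem foldD4_perm : orbsD4.flatten.Perm (List.range chevD4.rank) := by decide +kernel
theorem foldD4_rep : ∀ i < chevD4.rank, frepD4 i < chevD4.rank ∧ ∃ J ∈ orbsD4, i ∈ J ∧ frepD4 i ∈ J := by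
  decide +kernel
theorem foldD4_BA : ∀ m < chevD4.rank, ∀ i < chevD4.rank,
    ∑ j ∈ Finset.range chevD4.rank, fBD4 m j * chevD4.cartan j (chevD4.simple i) =
      if m = frepD4 i then 1 else 0 := by
  decide +kernel
theorem foldD4_Bc : ∀ J ∈ orbsD4, ∀ j ∈ J, ∀ j' ∈ J, ∀ m < chevD4.rank, fBD4 m j = fBD4 m j' := by
  decide +kernel

variable {F : Type*} [Field F]

/-- the fixed points of the standard triality. -/
theorem foldD4_std (τ : ↥(chevD4.group F) ≃* ↥(chevD4.group F))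
    (hτ : GenAct τ (fun i => [2, 1, 3, 0].getD i 0)) (S : Subgroup ↥(chevD4.group F))
    (hS : ∀ g, g ∈ S ↔ τ g = g) : Nonempty (↥S ≃* ↥(chevG2.group F)) := by
  have b := bundle_of_mem F Cfsg.Agent.Lib.Helper45.memD4
  obtain ⟨G⟩ := graphConjD40 b.hA
  have hid : ∀ t : F, (RingHom.id F) t = t ^ 1 := fun t => (pow_one t).symm
  refine fold_main (D' := chevG2) Cfsg.Agent.Lib.Helper45.memD4 (by simp) b (P := G.P) graphTabD4 ?_ twTabD4
    gamOneD4 (G1 := twistedD4 F 1)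
    (Cfsg.Agent.Lib.Helper45.twistedD4_eq b.hA (RingHom.id F) hid (fun t => by simp))
    (Cfsg.Agent.Lib.Helper23.twistedD4_eq b.hA (RingHom.id F) hid (fun t => id_pow_apply _ _))
    foldTabD4 foldD4_O1 foldD4_O2 (orthLD4 b.hA) covD4 foldD4_cyc longD4 orbD4 foldD4_perm fBD4 frepD4
    foldD4_rep foldD4_BA foldD4_Bc S ?_
  · intro r hr t
    rw [G.conj r hr, (rhoD4_eq r hr).1, (rhoD4_eq r hr).2]
  · intro g
    rw [hS, ← eq_graphConj b.hA b.hR b.hN G graphFactsD40 τ hτ g]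
    exact ⟨fun h => congrArg Subtype.val h, fun h => Subtype.ext h⟩

/-- the fixed points of any graph automorphism of order 3. -/
theorem foldD4_main (τ : MulAut ↥(chevD4.group F)) (hτ : chevD4.IsGraphAut τ) (hτ3 : orderOf τ = 3)
    (S : Subgroup ↥(chevD4.group F)) (hS : ∀ g, g ∈ S ↔ τ g = g) : Nonempty (↥S ≃* ↥(chevG2.group F)) := by
  have b := bundle_of_mem F Cfsg.Agent.Lib.Helper45.memD4
  obtain ⟨π, hπ, h⟩ := hτ
  have inv : ∀ L : ℕ → ℕ, GenAct τ L → (∀ i < chevD4.rank, L i < chevD4.rank ∧ L (L i) = i) → False := by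
    intro L hL h2
    have h3 : τ ^ 2 = 1 := by
      ext1 g
      rw [pow_two]
      exact genAct_comp b.hA b.hR b.hN hL hL h2 g
    have h4 := orderOf_dvd_of_pow_eq_one h3
    rw [hτ3] at h4
    exact absurd h4 (by decide)
  rcases symD4 π hπ with h0 | h0 | h0 | h0 | h0 | h0
  · exact (inv (fun i => [0, 1, 2, 3].getD i 0) (genAct_of_graph notLongD4 h _ h0) (by decide)).elim
  · exact foldD4_std τ (genAct_of_graph notLongD4 h (fun i => [2, 1, 3, 0].getD i 0) h0) S hS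
  · refine foldD4_std τ.symm (genAct_symm b.hA
      (genAct_of_graph notLongD4 h (fun i => [3, 1, 0, 2].getD i 0) h0) (by decide)) S ?_
    intro g
    rw [hS, MulEquiv.symm_apply_eq]
    exact eq_comm
  · exact (inv (fun i => [2, 1, 0, 3].getD i 0) (genAct_of_graph notLongD4 h _ h0) (by decide)).elim
  · exact (inv (fun i => [3, 1, 2, 0].getD i 0) (genAct_of_graph notLongD4 h _ h0) (by decide)).elim
  · exact (inv (fun i => [0, 1, 3, 2].getD i 0) (genAct_of_graph notLongD4 h _ h0) (by decide)).elim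

end Cfsg.Agent.Lib.Helper22
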