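import Cfsg.Agent.Lib.Helper23.F4Tw4
import Cfsg.Agent.Lib.Helper23.TwAutAbs2
import Cfsg.Agent.Lib.Helper23.TwAutSub

/-! definitions for the outer automorphism group of the large Ree groups -/

set_option autoImplicit false

namespace Cfsg.Agent.Lib.Helper22.OF4
open Cfsg.Lie Matrix Cfsg.Agent.Lib.Helper22 Cfsg.Agent.Lib.Helper23 Cfsg.Agent.Lib.Helper45
open Cfsg.Agent.Lib.Helper45.AutAbs Cfsg.Agent.Lib.Helper23.TwAut

section abs
variable {G : Type*} [Group G] {K : Type*} [Field K]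

/-- `h_b(c)` -/
def hb (xb yb : K → G) (c : K) : G := hT (fun _ : Unit => xb) (fun _ : Unit => yb) () c

/-- the standard (field) automorphisms -/
def IsStd (xb yb : K → G) (xa ya : K → K → G) (θ : G ≃* G) (τ : K ≃+* K) : Prop :=
  (∀ t, θ (xb t) = xb (τ t)) ∧ (∀ t, θ (yb t) = yb (τ t)) ∧
    (∀ t u, θ (xa t u) = xa (τ t) (τ u)) ∧ ∀ t u, θ (ya t u) = ya (τ t) (τ u)

end abs

section conc
variable {K : Type*} [Field K] [CharP K 2] (hA : AddFact chevF4 K) (m : ℕ)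

/-- `x_b(t)` -/
noncomputable def xb (t : K) : ↥(twistedF4 K (2 ^ m)) := ⟨hA.W (pairW 33 24 (f4Th K m) t), pair_pos_mem hA m t⟩
/-- `x_{-b}(t)` -/
noncomputable def yb (t : K) : ↥(twistedF4 K (2 ^ m)) := ⟨hA.W (pairW 14 23 (f4Th K m) t), pair_neg_mem hA m t⟩
/-- `x_a(t,u)` -/
noncomputable def xa (t u : K) : ↥(twistedF4 K (2 ^ m)) :=
  ⟨hA.W (clsW 27 25 28 30 (f4Th K m) (f4Ps K m) t u), cls_pos_mem hA m t u⟩
/-- `x_{-a}(t,u)` -/
noncomputable def ya (t u : K) : ↥(twistedF4 K (2 ^ m)) :=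
  ⟨hA.W (clsW 20 22 19 17 (f4Th K m) (f4Ps K m) t u), cls_neg_mem hA m t u⟩
/-- `n_a` -/
noncomputable def na : ↥(twistedF4 K (2 ^ m)) := ⟨hA.nword [1, 2, 1, 2], f4_n2_mem hA m⟩
/-- `n_b` -/
noncomputable def nb : ↥(twistedF4 K (2 ^ m)) := ⟨hA.nword [0, 3], f4_n1_mem hA m⟩

variable (K)
/-- `U¹` -/
def UU : Subgroup ↥(twistedF4 K (2 ^ m)) := sT (twistedF4 K (2 ^ m)) (chevF4.posUnipotent K)
/-- `V¹` -/
def VV : Subgroup ↥(twistedF4 K (2 ^ m)) := sT (twistedF4 K (2 ^ m)) (chevF4.negUnipotent K)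
/-- `B¹` -/
def BB : Subgroup ↥(twistedF4 K (2 ^ m)) := sT (twistedF4 K (2 ^ m)) (chevF4.borelSubgroup K)
/-- `N¹` -/
def NN : Subgroup ↥(twistedF4 K (2 ^ m)) := sT (twistedF4 K (2 ^ m)) (chevF4.monomialSubgroup K)

end conc

end Cfsg.Agent.Lib.Helper22.OF4
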