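import Cfsg.Agent.Lib.Helper22.OF4Defs
import Cfsg.Agent.Lib.Helper23.TwAutStd

/-! rung FLD: field automorphisms of the large Ree groups -/

set_option autoImplicit false
set_option linter.unusedSectionVars false

namespace Cfsg.Agent.Lib.Helper22.OF4
open Cfsg.Lie Matrix Cfsg.Agent.Lib.Helper22 Cfsg.Agent.Lib.Helper23 Cfsg.Agent.Lib.Helper45
open Cfsg.Agent.Lib.Helper45.AutAbs Cfsg.Agent.Lib.Helper23.TwAut

variable {K : Type*} [Field K] [CharP K 2] [Fintype K] {m : ℕ} (b : Bundle chevF4 K)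

theorem glMap_W (hA : AddFact chevF4 K) (τ : K →+* K) (w : List (ℕ × K)) :
    glMap chevF4 τ (hA.W w) = hA.W (w.map fun p => (p.1, τ p.2)) := by
  induction w with
  | nil => simp [AddFact.W]
  | cons p w ih =>
    rw [W_cons, map_mul, glMap_X hA hA, ih, List.map_cons, W_cons]

theorem tau_Th (τ : K →+* K) (t : K) : τ (f4Th K m t) = f4Th K m (τ t) := by
  rw [f4Th_apply, f4Th_apply, map_pow]

theorem tau_Ps (τ : K →+* K) (t : K) : τ (f4Ps K m t) = f4Ps K m (τ t) := by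
  rw [f4Ps_apply, f4Ps_apply, map_pow, tau_Th]

theorem glMap_pair (hA : AddFact chevF4 K) (τ : K →+* K) (r rb : ℕ) (t : K) :
    glMap chevF4 τ (hA.W (pairW r rb (f4Th K m) t)) = hA.W (pairW r rb (f4Th K m) (τ t)) := by
  rw [glMap_W]
  simp only [pairW, List.map_cons, List.map_nil, tau_Th]

theorem glMap_cls (hA : AddFact chevF4 K) (τ : K →+* K) (a c ab aab : ℕ) (t u : K) :
    glMap chevF4 τ (hA.W (clsW a c ab aab (f4Th K m) (f4Ps K m) t u)) =
      hA.W (clsW a c ab aab (f4Th K m) (f4Ps K m) (τ t) (τ u)) := by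
  rw [glMap_W]
  simp only [clsW, List.map_cons, List.map_nil, tau_Th, tau_Ps, map_add, map_mul]

/-- [FLD] -/
theorem f4_fld (τ : K ≃+* K) : ∃ φ : ↥(twistedF4 K (2 ^ m)) ≃* ↥(twistedF4 K (2 ^ m)),
    IsStd (xb b.hA m) (yb b.hA m) (xa b.hA m) (ya b.hA m) φ τ ∧ Mp φ (UU K m) (UU K m) ∧
      Mp φ (VV K m) (VV K m) := by
  let Ψ : GL chevF4.Idx K →* GL chevF4.Idx K := glMap chevF4 (τ : K →+* K)
  have hΨX : ∀ r t, Ψ (b.hA.X r t) = b.hA.X r (τ t) := fun r t => glMap_X b.hA b.hA _ r t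
  have hΨG : ∀ g ∈ twistedF4 K (2 ^ m), Ψ g ∈ twistedF4 K (2 ^ m) := by
    have : twistedF4 K (2 ^ m) ≤ (twistedF4 K (2 ^ m)).comap Ψ := by
      conv_lhs => rw [twistedF4_eq b.hA]
      rw [Subgroup.closure_le]
      rintro g ((⟨t, rfl⟩ | ⟨t, rfl⟩) | (⟨t, u, rfl⟩ | ⟨t, u, rfl⟩))
      · rw [SetLike.mem_coe, Subgroup.mem_comap]
        show glMap chevF4 (τ : K →+* K) _ ∈ _
        rw [glMap_pair]; exact pair_pos_mem b.hA m _
      · rw [SetLike.mem_coe, Subgroup.mem_comap]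
        show glMap chevF4 (τ : K →+* K) _ ∈ _
        rw [glMap_pair]; exact pair_neg_mem b.hA m _
      · rw [SetLike.mem_coe, Subgroup.mem_comap]
        show glMap chevF4 (τ : K →+* K) _ ∈ _
        rw [glMap_cls]; exact cls_pos_mem b.hA m _ _
      · rw [SetLike.mem_coe, Subgroup.mem_comap]
        show glMap chevF4 (τ : K →+* K) _ ∈ _
        rw [glMap_cls]; exact cls_neg_mem b.hA m _ _
    exact fun g hg => this hg
  have hΨinj : Function.Injective Ψ := glMap_injective _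
  let θ₀ : ↥(twistedF4 K (2 ^ m)) →* ↥(twistedF4 K (2 ^ m)) :=
    (Ψ.comp (twistedF4 K (2 ^ m)).subtype).codRestrict (twistedF4 K (2 ^ m)) (fun g => hΨG g g.2)
  have hθ₀ : ∀ g : ↥(twistedF4 K (2 ^ m)), ((θ₀ g : ↥(twistedF4 K (2 ^ m))) : GL chevF4.Idx K) = Ψ g :=
    fun _ => rfl
  have hinj : Function.Injective θ₀ := fun x y e =>
    Subtype.ext (hΨinj (by rw [← hθ₀, ← hθ₀, e]))
  have : Finite ↥(twistedF4 K (2 ^ m)) := inferInstance
  let θ : ↥(twistedF4 K (2 ^ m)) ≃* ↥(twistedF4 K (2 ^ m)) :=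
    MulEquiv.ofBijective θ₀ (Finite.injective_iff_bijective.1 hinj)
  have hθ : ∀ g : ↥(twistedF4 K (2 ^ m)), ((θ g : ↥(twistedF4 K (2 ^ m))) : GL chevF4.Idx K) = Ψ g :=
    fun _ => rfl
  refine ⟨θ, ⟨?_, ?_, ?_, ?_⟩, ?_, ?_⟩
  · intro t
    apply Subtype.ext
    rw [hθ]
    exact glMap_pair b.hA _ _ _ t
  · intro t
    apply Subtype.ext
    rw [hθ]
    exact glMap_pair b.hA _ _ _ t
  · intro t u
    apply Subtype.ext
    rw [hθ]
    exact glMap_cls b.hA _ _ _ _ _ t u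
  · intro t u
    apply Subtype.ext
    rw [hθ]
    exact glMap_cls b.hA _ _ _ _ _ t u
  · apply mp_of_finite
    intro g hg
    rw [UU, mem_sT] at hg ⊢
    rw [hθ]
    have : chevF4.posUnipotent K ≤ (chevF4.posUnipotent K).comap Ψ := by
      conv_lhs => rw [b.hA.posUnipotent_eq]
      rw [Subgroup.closure_le]
      rintro _ ⟨r, t, hr, rfl⟩
      rw [SetLike.mem_coe, Subgroup.mem_comap, hΨX r]
      exact b.hA.X_mem_pos hr _
    exact this hg
  · apply mp_of_finite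
    intro g hg
    rw [VV, mem_sT] at hg ⊢
    rw [hθ]
    have : chevF4.negUnipotent K ≤ (chevF4.negUnipotent K).comap Ψ := by
      conv_lhs => rw [b.hA.negUnipotent_eq]
      rw [Subgroup.closure_le]
      rintro _ ⟨r, t, hr, rfl⟩
      rw [SetLike.mem_coe, Subgroup.mem_comap, hΨX r]
      exact b.hA.X_mem_neg hr _
    exact this hg

end Cfsg.Agent.Lib.Helper22.OF4
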