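import Cfsg.Agent.Lib.Helper31.OF4N0
import Cfsg.Agent.Lib.Helper49.OF4DUV

/-! rung LIN: elements normalising `U¹` and `V¹` act linearly on `X_b` -/

set_option autoImplicit false
set_option linter.unusedSectionVars false

namespace Cfsg.Agent.Lib.Helper22.OF4
open Cfsg.Lie Matrix Cfsg.Agent.Lib.Helper22 Cfsg.Agent.Lib.Helper23 Cfsg.Agent.Lib.Helper45
open Cfsg.Agent.Lib.Helper45.AutAbs Cfsg.Agent.Lib.Helper23.TwAut

variable {K : Type*} [Field K] [CharP K 2] [Fintype K] {m : ℕ} (hK : Fintype.card K = 2 ^ (2 * m + 1))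
  (b : Bundle chevF4 K) (α : ↥(chevF4.group K) ≃* ↥(chevF4.group K))
  (hα : ∀ r < 48, ∀ t : K,
    (α ⟨b.hA.X r t, b.hA.X_mem_group r t⟩ : GL chevF4.Idx K) = b.hA.X (isoRhoF4 r) (t ^ isoLamF4 r))

theorem cj_trans3 {G : Type*} [Group G] (n x : G) :
    (cj n).trans ((cj x).trans (cj n⁻¹)) = cj (n⁻¹ * x * n) := by
  apply MulEquiv.ext
  intro y
  simp only [MulEquiv.trans_apply, cj_apply]
  group

include b in
theorem mem_diag_of_norm (hNU : ∀ g, Mp (cj g) (UU K m) (UU K m) → g ∈ BB K m)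
    (x : ↥(twistedF4 K (2 ^ m))) (h1 : Mp (cj x) (UU K m) (UU K m))
    (h2 : Mp (cj x) (VV K m) (VV K m)) : (x : GL chevF4.Idx K) ∈ chevF4.diagonalSubgroup K := by
  have hc := cmp_opp b n0L_rank (one_mem _) (fun r hr => n0L_opp r hr.1 hr)
  rw [mul_one] at hc
  set n₀ : ↥(twistedF4 K (2 ^ m)) := ⟨b.hA.nword n0L.flatten, f4_nword_flatten_mem b.hA m n0L n0L_mem⟩ with hn₀
  have hn0 : Mp (cj n₀) (UU K m) (VV K m) := mp_of_cmpT hc.1
  have hnN : b.hA.nword n0L.flatten ∈ chevF4.monomialSubgroup K := b.hA.nword_mem_mono b.hR n0L_rank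
  have hB := mem_sT.1 (hNU x h1)
  have hB' : n₀⁻¹ * x * n₀ ∈ BB K m := by
    apply hNU
    have := hn0.trans (h2.trans (mp_cj_inv hn0))
    rwa [cj_trans3] at this
  have hB'' : (b.hA.nword n0L.flatten)⁻¹ * (x : GL chevF4.Idx K) * b.hA.nword n0L.flatten ∈
      chevF4.borelSubgroup K := mem_sT.1 hB'
  obtain ⟨u, hu, k, hk, e⟩ := (b.hA.mem_borel_iff b.hT).1 hB''
  set N := b.hA.nword n0L.flatten with hN
  have e5 : (x : GL chevF4.Idx K) = (N * u * N⁻¹) * (N * k * N⁻¹) := by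
    have : (x : GL chevF4.Idx K) = N * (N⁻¹ * x * N) * N⁻¹ := by group
    rw [this, e]; group
  have h6 : (x : GL chevF4.Idx K) ∈ chevF4.borelSubgroup K ⊓ (chevF4.negUnipotent K ⊔ chevF4.diagonalSubgroup K) := by
    refine ⟨hB, ?_⟩
    rw [e5]
    exact mul_mem (Subgroup.mem_sup_left ((hc.1 u).2 hu))
      (Subgroup.mem_sup_right (b.hA.mono_conj_diag b.hR b.hN hnN hk))
  rwa [b.hTri.BVH] at h6

include hK hα in
/-- [LIN] -/
theorem f4_lin (hNU : ∀ g, Mp (cj g) (UU K m) (UU K m) → g ∈ BB K m)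
    (x : ↥(twistedF4 K (2 ^ m))) (h1 : Mp (cj x) (UU K m) (UU K m))
    (h2 : Mp (cj x) (VV K m) (VV K m)) : ∃ c, ∀ t, x * xb b.hA m t * x⁻¹ = xb b.hA m (c * t) := by
  have hd := mem_diag_of_norm b hNU x h1 h2
  obtain ⟨χ, hχ⟩ := b.hA.diag_isTor b.hT hd
  refine ⟨χ 24, duv_xb b hχ (χ 24) rfl ?_⟩
  have hmem : (x * xb b.hA m 1 * x⁻¹ : ↥(twistedF4 K (2 ^ m))).1 ∈ twistedF4 K (2 ^ m) :=
    (x * xb b.hA m 1 * x⁻¹).2
  have hfix := (f4_G1_fix hK b α hα hmem).2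
  have e : ((x * xb b.hA m 1 * x⁻¹ : ↥(twistedF4 K (2 ^ m))) : GL chevF4.Idx K) =
      b.hA.W [(33, χ 33 * f4Th K m 1), (24, χ 24 * 1)] := by
    show (x : GL chevF4.Idx K) * b.hA.W (pairW 33 24 (f4Th K m) 1) * (x : GL chevF4.Idx K)⁻¹ = _
    rw [duv_conj_W b hχ _ (by
      have h48 : chevF4.nroots = 48 := rfl
      intro p hp
      simp only [pairW, List.mem_cons, List.not_mem_nil, or_false] at hp
      rw [h48]
      rcases hp with rfl | rfl <;> norm_num)]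
    rfl
  have h3 : ((x * xb b.hA m 1 * x⁻¹ : ↥(twistedF4 K (2 ^ m))) : GL chevF4.Idx K) ∈
      FixL b (f4Sigma b α m) [33, 24] := ⟨by rw [e]; exact (mem_XL1 b).2 ⟨_, _, rfl⟩, hfix⟩
  obtain ⟨s, hs⟩ := (mem_FixL1 hK b α hα).1 h3
  rw [e] at hs
  obtain ⟨e1, e2⟩ := f4_unique2 b hs
  rw [map_one, mul_one] at e1
  rw [mul_one] at e2
  rw [e1, e2]

end Cfsg.Agent.Lib.Helper22.OF4
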