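import Cfsg.Agent.Lib.Helper23.OF4NDC
import Cfsg.Agent.Lib.Helper45.OF4OPP
import Cfsg.Agent.Lib.Helper23.TwAutP
import Cfsg.Agent.Lib.Helper64.OF4PVA
import Cfsg.Agent.Lib.Helper64.OF4NAC
import Cfsg.Agent.Lib.Helper31.OF4COMM
import Cfsg.Agent.Lib.Helper31.OF4NBV
import Cfsg.Agent.Lib.Helper31.OF4N0
import Cfsg.Agent.Lib.Helper31.OF4NAE
import Cfsg.Agent.Lib.Helper49.OF4SYL

/-! the system `PSys` for the large Ree groups -/

set_option autoImplicit false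
set_option linter.unusedSectionVars false
set_option linter.unusedVariables false

namespace Cfsg.Agent.Lib.Helper22.OF4
open Cfsg.Lie Matrix Cfsg.Agent.Lib.Helper22 Cfsg.Agent.Lib.Helper23 Cfsg.Agent.Lib.Helper45
  Cfsg.Agent.Lib.Helper8
open Cfsg.Agent.Lib.Helper45.AutAbs Cfsg.Agent.Lib.Helper23.TwAut

variable {K : Type*} [Field K] [CharP K 2] [Fintype K] {m : ℕ} (hK : Fintype.card K = 2 ^ (2 * m + 1))
  (b : Bundle chevF4 K) (α : ↥(chevF4.group K) ≃* ↥(chevF4.group K))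
  (hα : ∀ r < 48, ∀ t : K,
    (α ⟨b.hA.X r t, b.hA.X_mem_group r t⟩ : GL chevF4.Idx K) = b.hA.X (isoRhoF4 r) (t ^ isoLamF4 r))

theorem xb_U (t : K) : xb b.hA m t ∈ UU K m :=
  mem_sT.2 (XL_le_pos b (l := [33, 24]) (by decide +kernel) ⟨_, rfl, rfl⟩)

theorem xa_U (t u : K) : xa b.hA m t u ∈ UU K m :=
  mem_sT.2 (XL_le_pos b (l := [27, 25, 28, 30]) (by decide +kernel) ⟨_, rfl, rfl⟩)

theorem yb_V (t : K) : yb b.hA m t ∈ VV K m :=
  mem_sT.2 (XL_le_neg b (l := [14, 23]) (by decide +kernel) ⟨_, rfl, rfl⟩)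

theorem ya_V (t u : K) : ya b.hA m t u ∈ VV K m :=
  mem_sT.2 (XL_le_neg b (l := [20, 22, 19, 17]) (by decide +kernel) ⟨_, rfl, rfl⟩)

theorem UU_le_BB : UU K m ≤ BB K m := fun g hg => mem_sT.2 (AddFact.pos_le_borel (mem_sT.1 hg))

omit [Fintype K] in
theorem xb_zero : xb b.hA m 0 = 1 := by
  apply Subtype.ext
  simp [xb, pairW, AddFact.W, b.hA.X_zero]

omit [Fintype K] in
theorem xa_zero : xa b.hA m 0 0 = 1 := by
  apply Subtype.ext
  simp [xa, clsW, AddFact.W, b.hA.X_zero]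

include b in
theorem BB_VV (g : ↥(twistedF4 K (2 ^ m))) (h1 : g ∈ BB K m) (h2 : g ∈ VV K m) : g = 1 := by
  apply Subtype.ext
  have : (g : GL chevF4.Idx K) ∈ chevF4.borelSubgroup K ⊓ chevF4.negUnipotent K := ⟨mem_sT.1 h1, mem_sT.1 h2⟩
  rwa [b.hTri.BV, Subgroup.mem_bot] at this

omit [Fintype K] in
theorem nb_eq : nb b.hA m = xb b.hA m 1 * yb b.hA m 1 * xb b.hA m 1 :=
  Subtype.ext (f4_n1_eq b.hA (f4Th K m)).symm

include hK hα in
/-- [PSYS] -/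
theorem f4_psys : ∃ (Xp Xm P : Fin 2 → Subgroup ↥(twistedF4 K (2 ^ m))) (n0 : ↥(twistedF4 K (2 ^ m))),
    PSys Xp Xm (UU K m) (VV K m) (BB K m) (NN K m) P ![nb b.hA m, na b.hA m] n0 id ∧
    (∀ g, g ∈ Xp 0 ↔ ∃ t, g = xb b.hA m t) ∧ (∀ g, g ∈ Xm 0 ↔ ∃ t, g = yb b.hA m t) ∧
    (∀ g, g ∈ Xp 1 ↔ ∃ t u, g = xa b.hA m t u) ∧ (∀ g, g ∈ Xm 1 ↔ ∃ t u, g = ya b.hA m t u) := by
  obtain ⟨PP, hPB, hPN, hPS⟩ := f4_bnPair hK b α hα
  have hPB' : PP.B = BB K m := by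
    rw [hPB]
    ext g
    rw [Subgroup.mem_subgroupOf, BB, mem_sT, Subgroup.mem_inf]
    exact ⟨fun h => h.1, fun h => ⟨h, g.2⟩⟩
  have hsS : ∀ i, (![nb b.hA m, na b.hA m] i) ∈ PP.S := by
    intro i
    rw [hPS]
    fin_cases i
    · exact ⟨[0, 3], by simp [f4Orbs], rfl⟩
    · exact ⟨[1, 2, 1, 2], by simp [f4Orbs], rfl⟩
  choose Pm hPm using fun i => exists_min_par PP (hsS i)
  rw [hPB'] at hPm
  obtain ⟨n0, hn0, hn0', hn0b, hn0a⟩ := f4_n0 (m := m) b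
  have hBP : ∀ i, BB K m ≤ Pm i := fun i g hg => (hPm i g).2 (Or.inl hg)
  have hnP : ∀ i, ![nb b.hA m, na b.hA m] i ∈ Pm i :=
    fun i => (hPm i _).2 (Or.inr ⟨1, one_mem _, 1, one_mem _, by simp⟩)
  have hP : ∀ i, ∀ g ∈ Pm i, g ∈ BB K m ∨ ∃ x ∈ BB K m, ∃ y ∈ BB K m,
      g = x * ![nb b.hA m, na b.hA m] i * y := fun i g hg => (hPm i g).1 hg
  have hm0 : ∀ g, g ∈ Pm 0 ⊓ VV K m ↔ g ∈ {g | ∃ t, g = yb b.hA m t} := by
    refine pv_abs (X := {g | ∃ t, g = xb b.hA m t}) (nb b.hA m) (BB_VV b) ?_ (hBP 0) (hnP 0) (hP 0) ?_ ?_ ?_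
      ⟨0, (xb_zero b).symm⟩ (fun x hx v hv => f4_nb_ne b x v hx hv)
    · rintro x ⟨t, rfl⟩
      exact UU_le_BB (xb_U b t)
    · intro x hx
      obtain ⟨b', hb', t, e⟩ := f4_nb_dc hK b α hα x hx
      exact ⟨b', hb', _, ⟨t, rfl⟩, e⟩
    · intro g
      constructor
      · rintro ⟨t, e⟩
        refine ⟨t, ?_⟩
        rw [← f4_nb_X b] at e
        exact mul_left_cancel (mul_right_cancel e)
      · rintro ⟨t, rfl⟩
        exact ⟨t, f4_nb_X b t⟩
    · rintro y ⟨t, rfl⟩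
      exact yb_V b t
  have hm1 : ∀ g, g ∈ Pm 1 ⊓ VV K m ↔ g ∈ {g | ∃ t u, g = ya b.hA m t u} := by
    refine pv_abs (X := {g | ∃ t u, g = xa b.hA m t u}) (na b.hA m) (BB_VV b) ?_ (hBP 1) (hnP 1) (hP 1) ?_ ?_ ?_
      ⟨0, 0, (xa_zero b).symm⟩ (fun x hx v hv => f4_na_ne b x v hx hv)
    · rintro x ⟨t, u, rfl⟩
      exact UU_le_BB (xa_U b t u)
    · intro x hx
      obtain ⟨b', hb', t, u, e⟩ := f4_na_dc hK b α hα x hx
      exact ⟨b', hb', _, ⟨t, u, rfl⟩, e⟩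
    · intro g
      constructor
      · rintro ⟨t, u, e⟩
        refine ⟨t, u, ?_⟩
        rw [← f4_na_X b] at e
        exact mul_left_cancel (mul_right_cancel e)
      · rintro ⟨t, u, rfl⟩
        exact ⟨t, u, f4_na_X b t u⟩
    · rintro y ⟨t, u, rfl⟩
      exact ya_V b t u
  have hmap : ∀ (i : Fin 2) g, g ∈ (Pm i ⊓ VV K m).map (cj n0).toMonoidHom ↔ n0⁻¹ * g * n0 ∈ Pm i ⊓ VV K m := by
    intro i g
    constructor
    · rintro ⟨y, hy, rfl⟩
      have : n0⁻¹ * (cj n0).toMonoidHom y * n0 = y := by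
        show n0⁻¹ * (n0 * y * n0⁻¹) * n0 = y
        group
      rw [this]; exact hy
    · intro h
      refine ⟨_, h, ?_⟩
      show n0 * (n0⁻¹ * g * n0) * n0⁻¹ = g
      group
  have hp0 : ∀ g, g ∈ (Pm 0 ⊓ VV K m).map (cj n0).toMonoidHom ↔ ∃ t, g = xb b.hA m t := by
    intro g
    rw [hmap, hm0]
    constructor
    · rintro ⟨t, e⟩
      refine ⟨t, ?_⟩
      rw [← hn0b, ← e]; group
    · rintro ⟨t, rfl⟩
      refine ⟨t, ?_⟩
      rw [← hn0b]; group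
  have hp1 : ∀ g, g ∈ (Pm 1 ⊓ VV K m).map (cj n0).toMonoidHom ↔ ∃ t u, g = xa b.hA m t u := by
    intro g
    rw [hmap, hm1]
    constructor
    · rintro ⟨t, u, e⟩
      refine ⟨t, u, ?_⟩
      rw [← hn0a, ← e]; group
    · rintro ⟨t, u, rfl⟩
      refine ⟨t, u, ?_⟩
      rw [← hn0a]; group
  have hover : ∀ Q : Subgroup ↥(twistedF4 K (2 ^ m)), BB K m ≤ Q → ¬ Q ≤ BB K m →
      ∃ j, ![nb b.hA m, na b.hA m] j ∈ Q := by
    intro Q hBQ hQB
    by_contra hno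
    apply hQB
    have hBQ' : PP.B ≤ Q := by rw [hPB']; exact hBQ
    have h1 := eq_parabolic_of_le (P := PP) hBQ'
    have h2 : PP.S ∩ (Q : Set ↥(twistedF4 K (2 ^ m))) = ∅ := by
      rw [Set.eq_empty_iff_forall_notMem]
      rintro s ⟨hs, hsQ⟩
      rw [hPS] at hs
      obtain ⟨J, hJ, e⟩ := hs
      apply hno
      simp only [f4Orbs, List.mem_cons, List.not_mem_nil, or_false] at hJ
      rcases hJ with rfl | rfl
      · refine ⟨0, ?_⟩
        have : s = nb b.hA m := Subtype.ext e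
        rw [← this] at *; exact hsQ
      · refine ⟨1, ?_⟩
        have : s = na b.hA m := Subtype.ext e
        rw [← this] at *; exact hsQ
    rw [h2] at h1
    rw [h1, Cfsg.BNPair.parabolic, Subgroup.closure_empty, sup_bot_eq, hPB']
  have hBU : ∀ x ∈ BB K m, Mp (cj x) (UU K m) (UU K m) :=
    fun x hx => mp_of_cmpT (borel_cmp b (mem_sT.1 hx))
  refine ⟨fun i => (Pm i ⊓ VV K m).map (cj n0).toMonoidHom, fun i => Pm i ⊓ VV K m, Pm, n0, ?_, hp0, hm0, hp1, hm1⟩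
  exact
  { U_le := UU_le_BB
    BV := BB_VV b
    hSyl := f4_syl hK
    hBU := hBU
    hNU := fun g hg => by
      by_contra hgB
      have hBQ : BB K m ≤ Subgroup.normalizer (UU K m : Set ↥(twistedF4 K (2 ^ m))) := by
        intro x hx
        rw [Subgroup.mem_normalizer_iff]
        intro y
        exact (hBU x hx y).symm
      have hgQ : g ∈ Subgroup.normalizer (UU K m : Set ↥(twistedF4 K (2 ^ m))) := by
        rw [Subgroup.mem_normalizer_iff]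
        intro y
        exact (hg y).symm
      obtain ⟨j, hj⟩ := hover _ hBQ (fun h => hgB (h hgQ))
      rw [Subgroup.mem_normalizer_iff] at hj
      fin_cases j
      · have h1 := (hj (xb b.hA m 1)).1 (xb_U b 1)
        have h1' : nb b.hA m * xb b.hA m 1 * (nb b.hA m)⁻¹ ∈ UU K m := h1
        rw [f4_nb_X b] at h1'
        have h2 := BB_VV b _ (UU_le_BB h1') (yb_V b 1)
        apply f4_nb_ne b (xb b.hA m 1 * xb b.hA m 1) 1 (UU_le_BB (mul_mem (xb_U b 1) (xb_U b 1))) (one_mem _)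
        rw [nb_eq b, h2]
        group
      · have h1 := (hj (xa b.hA m 0 1)).1 (xa_U b 0 1)
        have h1' : na b.hA m * xa b.hA m 0 1 * (na b.hA m)⁻¹ ∈ UU K m := h1
        rw [f4_na_X b] at h1'
        have h2 := BB_VV b _ (UU_le_BB h1') (ya_V b 0 1)
        apply f4_na_ne b (xa b.hA m 1 0 * xa b.hA m 1 1) 1 (UU_le_BB (mul_mem (xa_U b _ _) (xa_U b _ _))) (one_mem _)
        rw [f4_na_eq b, h2]
        group
    bruhat := fun g => by
      obtain ⟨n, hn, x, hx, hx1, y, hy, hy1, e⟩ := (f4_fixBN hK b α hα).cover (sharpBN_of_mem K memF4) g.2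
      have hmm := (f4_fixBN hK b α hα).closure_S1_le hn
      exact ⟨⟨x, hx1⟩, mem_sT.2 hx, ⟨n, hmm.2⟩, mem_sT.2 hmm.1, ⟨y, hy1⟩, mem_sT.2 hy, Subtype.ext e⟩
    hn0 := hn0
    hn0' := hn0'
    hopp := f4_opp hK b α hα
    hBP := hBP
    hnP := hnP
    hnB := fun i h => by
      fin_cases i
      · exact f4_nb_ne b _ 1 h (one_mem _) (mul_one _).symm
      · exact f4_na_ne b _ 1 h (one_mem _) (mul_one _).symm
    hP := hP
    hover := hover
    hPV := fun i => rfl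
    hn0X := fun i g => by
      rw [hmap]
      have : n0⁻¹ * cj n0 g * n0 = g := by
        rw [cj_apply]; group
      rw [this]
      exact Iff.rfl
    ι_surj := Function.surjective_id
    comm_pm := fun i j hij x hx y hy => by
      fin_cases i <;> fin_cases j
      · exact absurd rfl hij
      · obtain ⟨s, rfl⟩ := (hp0 x).1 hx
        obtain ⟨t, u, rfl⟩ := (hm1 y).1 hy
        exact f4_comm_ba b t u s
      · obtain ⟨t, u, rfl⟩ := (hp1 x).1 hx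
        obtain ⟨s, rfl⟩ := (hm0 y).1 hy
        exact f4_comm_ab b t u s
      · exact absurd rfl hij
    ncomm_pm := fun i h => by
      fin_cases i
      · have h1 := h (xb b.hA m 1) ((hp0 _).2 ⟨1, rfl⟩) (yb b.hA m 1) ((hm0 _).2 ⟨1, rfl⟩)
        apply f4_nb_ne b (xb b.hA m 1 * xb b.hA m 1) (yb b.hA m 1)
          (UU_le_BB (mul_mem (xb_U b 1) (xb_U b 1))) (yb_V b 1)
        rw [nb_eq b, mul_assoc, ← h1, mul_assoc]
      · have h1 := h (xa b.hA m 1 1) ((hp1 _).2 ⟨1, 1, rfl⟩) (ya b.hA m 0 1) ((hm1 _).2 ⟨0, 1, rfl⟩)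
        apply f4_na_ne b (xa b.hA m 1 0 * xa b.hA m 1 1) (ya b.hA m 0 1)
          (UU_le_BB (mul_mem (xa_U b _ _) (xa_U b _ _))) (ya_V b 0 1)
        rw [f4_na_eq b, mul_assoc, ← h1, mul_assoc] }

end Cfsg.Agent.Lib.Helper22.OF4
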