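import Cfsg.Agent.Lib.Helper22.OF4Defs
import Cfsg.Agent.Lib.Helper23.F4H
import Cfsg.Agent.Lib.Helper23.TwAutT

/-! rung TSB: the rank one system of the node `b` -/

set_option autoImplicit false
set_option linter.unusedSectionVars false
set_option maxRecDepth 100000

namespace Cfsg.Agent.Lib.Helper22.OF4
open Cfsg.Lie Matrix Cfsg.Agent.Lib.Helper22 Cfsg.Agent.Lib.Helper23 Cfsg.Agent.Lib.Helper45
open Cfsg.Agent.Lib.Helper45.AutAbs Cfsg.Agent.Lib.Helper23.TwAut

variable {K : Type*} [Field K] [CharP K 2] [Fintype K] {m : ℕ} (b : Bundle chevF4 K)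

theorem coe_xb (t : K) :
    ((xb b.hA m t : ↥(twistedF4 K (2 ^ m))) : GL chevF4.Idx K) = b.hA.xJ (f4Th K m) true [3, 0] t := by
  obtain ⟨s0, -, -, s3⟩ := f4_simple
  simp only [xb, pairW, AddFact.W, List.map_cons, List.map_nil, List.prod_cons, List.prod_nil, mul_one,
    AddFact.xJ_cons, AddFact.xJ_nil, sgR_true, s0, s3]
  exact (f4_comm_pos1 b.hA _ _).eq

theorem coe_yb (t : K) :
    ((yb b.hA m t : ↥(twistedF4 K (2 ^ m))) : GL chevF4.Idx K) = b.hA.xJ (f4Th K m) false [3, 0] t := by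
  obtain ⟨s0, -, -, s3⟩ := f4_simple
  have n0 : chevF4.neg 33 = 14 := by decide
  have n3 : chevF4.neg 24 = 23 := by decide
  simp only [yb, pairW, AddFact.W, List.map_cons, List.map_nil, List.prod_cons, List.prod_nil, mul_one,
    AddFact.xJ_cons, AddFact.xJ_nil, sgR_false, s0, s3, n0, n3]
  exact (f4_comm_neg1 b.hA _ _).eq

theorem rank30 : ∀ i ∈ [3, 0], i < chevF4.rank := by decide +kernel

theorem coe_nTb (t : K) :
    ((nT (fun _ : Unit => xb b.hA m) (fun _ : Unit => yb b.hA m) () t : ↥(twistedF4 K (2 ^ m))) :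
      GL chevF4.Idx K) = b.hA.nJ (f4Th K m) [3, 0] t := by
  rw [b.hA.nJ_eq _ (f4_orthL b), nT, Subgroup.coe_mul, Subgroup.coe_mul, coe_xb b, coe_yb b]

theorem coe_hTb (t : K) :
    ((hT (fun _ : Unit => xb b.hA m) (fun _ : Unit => yb b.hA m) () t : ↥(twistedF4 K (2 ^ m))) :
      GL chevF4.Idx K) = b.hA.hJ (f4Th K m) [3, 0] t := by
  rw [b.hA.hJ_eq _ (f4_orthL b), hT, Subgroup.coe_mul, coe_nTb b, coe_nTb b]

theorem cart30 : ∀ i ∈ [3, 0], ∀ sg, chevF4.cartan i (sgR chevF4 sg i) = AddFact.e2 sg := by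
  decide +kernel

theorem xJ30_eq_one (sg : Bool) {t : K} (h : b.hA.xJ (f4Th K m) sg [3, 0] t = 1) : t = 0 := by
  have hO := f4_orthL b
  rw [List.pairwise_cons] at hO
  rw [AddFact.xJ_cons] at h
  have h1 : b.hA.X (sgR chevF4 sg 3) t = (b.hA.xJ (f4Th K m) sg [0] (f4Th K m t))⁻¹ :=
    eq_inv_of_mul_eq_one_left h
  refine head_zero b (rank30 3 (by simp)) (sg := sg) (inv_mem ?_)
    (commI1_inv b.hA (AddFact.CommI1.xJ hO.1 sg _)) h1
  rw [AddFact.xJ_cons, AddFact.xJ_nil, mul_one]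
  exact X_sgR_mem b (rank30 0 (by simp)) sg _

/-- conjugation by `n_b(1)` -/
theorem nword30_conj (s : K) : b.hA.nword [3, 0] * b.hA.xJ (f4Th K m) true [3, 0] s * (b.hA.nword [3, 0])⁻¹ =
    b.hA.xJ (f4Th K m) false [3, 0] s := by
  obtain ⟨s0, -, -, s3⟩ := f4_simple
  have n0 : chevF4.neg 33 = 14 := by decide
  have n3 : chevF4.neg 24 = 23 := by decide
  have w1 : wact chevF4 [3, 0] 24 = 23 := by decide +kernel
  have w2 : wact chevF4 [3, 0] 33 = 14 := by decide +kernel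
  obtain ⟨ε, hε, h1, -⟩ := b.hA.nword_conj b.hR b.hN rank30 (s := 24) (by decide)
  obtain ⟨ε', hε', h1', -⟩ := b.hA.nword_conj b.hR b.hN rank30 (s := 33) (by decide)
  have e1 : ε = 1 := by
    rcases hε with rfl | rfl
    · rfl
    · exact CharTwo.neg_eq 1
  have e1' : ε' = 1 := by
    rcases hε' with rfl | rfl
    · rfl
    · exact CharTwo.neg_eq 1
  simp only [AddFact.xJ_cons, AddFact.xJ_nil, sgR_true, sgR_false, s0, s3, n0, n3, mul_one]
  have := h1 s
  have h2 := h1' (f4Th K m s)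
  rw [e1, one_mul, w1] at this
  rw [e1', one_mul, w2] at h2
  rw [← this, ← h2]
  group

theorem nJ30_conj {t : K} (ht : t ≠ 0) (s : K) :
    b.hA.nJ (f4Th K m) [3, 0] t * b.hA.xJ (f4Th K m) true [3, 0] s * (b.hA.nJ (f4Th K m) [3, 0] t)⁻¹ =
    b.hA.xJ (f4Th K m) false [3, 0] (t ^ (-2 : ℤ) * s) := by
  have hS := torS_of_mem K memF4
  have e : b.hA.nJ (f4Th K m) [3, 0] t = b.hA.hJ (f4Th K m) [3, 0] t * b.hA.nword [3, 0] := by
    rw [b.hA.hJ_eq _ (f4_orthL b), ← b.hA.nJ_one (f4Th K m), ← nJ_inv b.hA _ (f4_orthL b)]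
    group
  have h2 := b.hA.hJ_conj_xJ (f4Th K m) b.hR hS rank30 (f4_orthL b) cart30 false ht s
  have e2 : AddFact.e2 false = -2 := rfl
  rw [e2] at h2
  rw [← h2, ← nword30_conj b s, e]
  group

/-- [TSB] -/
theorem f4_tsb {Xb Yb : Subgroup ↥(twistedF4 K (2 ^ m))}
    (hXb : ∀ g, g ∈ Xb ↔ ∃ t, g = xb b.hA m t) (hYb : ∀ g, g ∈ Yb ↔ ∃ t, g = yb b.hA m t) :
    TSys (fun _ : Unit => (⊤ : Subfield K)) (fun _ => xb b.hA m) (fun _ => yb b.hA m) (fun _ => Xb)
      (fun _ => Yb) (VV K m) (BB K m) (fun _ _ => False) () := by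
  have hS := torS_of_mem K memF4
  exact
  { mem_Xp := fun _ g => by
      rw [hXb]
      exact ⟨fun ⟨t, e⟩ => ⟨t, Subfield.mem_top _, e⟩, fun ⟨t, _, e⟩ => ⟨t, e⟩⟩
    mem_Xm := fun _ g => by
      rw [hYb]
      exact ⟨fun ⟨t, e⟩ => ⟨t, Subfield.mem_top _, e⟩, fun ⟨t, _, e⟩ => ⟨t, e⟩⟩
    xp_add := fun _ t _ u _ => by
      apply Subtype.ext
      rw [Subgroup.coe_mul, coe_xb b, coe_xb b, coe_xb b, b.hA.xJ_add _ (f4_orthL b)]
    xm_add := fun _ t _ u _ => by
      apply Subtype.ext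
      rw [Subgroup.coe_mul, coe_yb b, coe_yb b, coe_yb b, b.hA.xJ_add _ (f4_orthL b)]
    xp_inj := fun _ t _ h => by
      apply xJ30_eq_one b true (m := m)
      rw [← coe_xb b, h]; rfl
    xm_inj := fun _ t _ h => by
      apply xJ30_eq_one b false (m := m)
      rw [← coe_yb b, h]; rfl
    Xp_le := fun _ g hg => by
      obtain ⟨t, rfl⟩ := (hXb g).1 hg
      exact mem_sT.2 (AddFact.pos_le_borel (XL_le_pos b (l := [33, 24]) (by decide +kernel) ⟨_, rfl, rfl⟩))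
    Xm_le := fun _ g hg => by
      obtain ⟨t, rfl⟩ := (hYb g).1 hg
      exact mem_sT.2 (XL_le_neg b (l := [14, 23]) (by decide +kernel) ⟨_, rfl, rfl⟩)
    BV := fun g h1 h2 => by
      apply Subtype.ext
      have : (g : GL chevF4.Idx K) ∈ chevF4.borelSubgroup K ⊓ chevF4.negUnipotent K :=
        ⟨mem_sT.1 h1, mem_sT.1 h2⟩
      rwa [b.hTri.BV, Subgroup.mem_bot] at this
    n_conj := fun _ t _ ht0 => by
      have key : ∀ s, nT (fun _ : Unit => xb b.hA m) (fun _ : Unit => yb b.hA m) () t * xb b.hA m s *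
          (nT (fun _ : Unit => xb b.hA m) (fun _ : Unit => yb b.hA m) () t)⁻¹ =
          yb b.hA m (t ^ (-2 : ℤ) * s) := by
        intro s
        apply Subtype.ext
        rw [Subgroup.coe_mul, Subgroup.coe_mul, Subgroup.coe_inv, coe_nTb b, coe_xb b, coe_yb b, nJ30_conj b ht0]
      intro g
      rw [cj_apply, hXb, hYb]
      constructor
      · rintro ⟨s, e⟩
        refine ⟨t ^ (2 : ℤ) * s, ?_⟩
        have := key (t ^ (2 : ℤ) * s)
        have e3 : t ^ (-2 : ℤ) * (t ^ (2 : ℤ) * s) = s := by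
          rw [← mul_assoc, ← zpow_add₀ ht0]
          norm_num
        rw [e3, ← e] at this
        exact (mul_left_cancel (mul_right_cancel this)).symm
      · rintro ⟨s, rfl⟩
        exact ⟨_, key s⟩
    hVB := fun _ t _ ht0 v hv x hx e => by
      have e' := congrArg Subtype.val e
      rw [coe_nTb b] at e'
      have h1 := mono_VB memF4 (nJ_mem_mono b (f4Th K m) rank30 ht0) (mem_sT.1 hv) (mem_sT.1 hx) e'
      exact (acts_nJ b (f4Th K m) rank30 ht0).not_mem_borel b (r := 24) (by decide +kernel) (by decide +kernel)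
        (AddFact.diag_le_borel h1)
    h_self := fun _ a _ ha0 u _ => by
      apply Subtype.ext
      rw [Subgroup.coe_mul, Subgroup.coe_mul, Subgroup.coe_inv, coe_hTb b, coe_xb b, coe_xb b,
        b.hA.hJ_conj_xJ (f4Th K m) b.hR hS rank30 (f4_orthL b) cart30 true ha0]
      have e2 : AddFact.e2 true = 2 := rfl
      rw [e2, zpow_ofNat]
    h_link := fun _ _ h => h.elim
    conn := fun _ => Relation.ReflTransGen.refl
    top := rfl }

end Cfsg.Agent.Lib.Helper22.OF4
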