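import Cfsg.Agent.Lib.Helper22.OF4Main
import Cfsg.Agent.Lib.Helper22.OF4Psys
import Cfsg.Agent.Lib.Helper64.OF4AUTK
import Cfsg.Agent.Lib.Helper64.OF4XA
import Cfsg.Agent.Lib.Helper64.OF4GEN
import Cfsg.Agent.Lib.Helper49.OF4HB
import Cfsg.Agent.Lib.Helper49.OF4DIAG
import Cfsg.Agent.Lib.Helper22.OF4TSB
import Cfsg.Agent.Lib.Helper22.OF4FLD
import Cfsg.Agent.Lib.Helper22.OF4LIN

/-! the outer automorphism group of the large Ree groups -/

set_option autoImplicit false

namespace Cfsg.Agent.Lib.Helper22.OF4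
open Cfsg.Lie Matrix Cfsg.Agent.Lib.Helper22 Cfsg.Agent.Lib.Helper23 Cfsg.Agent.Lib.Helper45
open Cfsg.Agent.Lib.Helper45.AutAbs Cfsg.Agent.Lib.Helper23.TwAut

theorem f4Th_ne_id {K : Type*} [Field K] [Fintype K] [CharP K 2] {m : ℕ} (hm : 1 ≤ m)
    (hK : Fintype.card K = 2 ^ (2 * m + 1)) : ∃ s : K, f4Th K m s ≠ s := by
  by_contra h
  push_neg at h
  have h1 : ∀ t : K, t ^ 2 = t := by
    intro t
    have := f4Ps_f4Th hK t
    rwa [f4Ps_apply, h, h] at this
  have h2 : ∀ t : K, t = 0 ∨ t = 1 := by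
    intro t
    have := h1 t
    rcases eq_or_ne t 0 with h0 | h0
    · exact Or.inl h0
    · right
      rw [sq] at this
      exact mul_left_cancel₀ h0 (this.trans (mul_one t).symm)
  have h3 : Fintype.card K ≤ 2 := by
    classical
    calc Fintype.card K = (Finset.univ : Finset K).card := rfl
      _ ≤ ({0, 1} : Finset K).card := Finset.card_le_card (fun t _ => by
          rcases h2 t with rfl | rfl <;> simp)
      _ ≤ 2 := Finset.card_le_two
  rw [hK] at h3
  have : 2 ^ 3 ≤ 2 ^ (2 * m + 1) := Nat.pow_le_pow_right (by norm_num) (by omega)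
  omega

/-- final assembly -/
theorem card_out_F4 {K : Type*} [Field K] [Fintype K] {m : ℕ} (hm : 1 ≤ m)
    (hK : Fintype.card K = 2 ^ (2 * m + 1)) : Nat.card (Cfsg.Out ↥(twistedF4 K (2 ^ m))) = 2 * m + 1 := by
  obtain ⟨_, b, α, hα⟩ := f4_setup hK
  obtain ⟨Xp, Xm, P, n0, PS, hXb, hYb, hXa, hYa⟩ := f4_psys hK b α hα
  rw [← card_ringAut hK]
  have M : MSys (f4Th K m) (xb b.hA m) (yb b.hA m) (xa b.hA m) (ya b.hA m) (na b.hA m) Xp Xm (UU K m) (VV K m)
      (BB K m) (NN K m) P ![nb b.hA m, na b.hA m] n0 id :=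
    { hΘ := fun t => by rw [← f4Ps_apply, f4Ps_f4Th hK]
      hΘ1 := f4Th_ne_id hm hK
      PS := PS
      hXb := hXb
      hYb := hYb
      hXa := hXa
      hYa := hYa
      hnn := rfl
      TS := f4_tsb b hXb hYb
      xa_mul := f4_xa_mul hK b
      xa_inj := f4_xa_inj b
      ya_inj := f4_ya_inj b
      xa_B := f4_xa_B b
      hb_act := f4_hb_act hK b
      hb_uv := f4_hb_uv b
      diag_a := f4_diag_a hK b
      na_eq := f4_na_eq b
      na_dc := fun x hx => by
        obtain ⟨b', hb', t, u, e⟩ := f4_na_dc hK b α hα x hx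
        exact ⟨b', hb', _, (hXa _).2 ⟨t, u, rfl⟩, e⟩
      na_X := f4_na_X b
      na_hb := f4_na_hb b
      gen := f4_gen b
      fld := f4_fld b
      lin := f4_lin hK b α hα PS.hNU }
  exact M.card_out

end Cfsg.Agent.Lib.Helper22.OF4
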