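import Cfsg.Agent.Lib.Helper22.OF4Defs
import Cfsg.Agent.Lib.Helper23.TwAutAbs3
import Cfsg.Agent.Lib.Helper39.OF4NA
import Cfsg.Agent.Lib.Helper39.OF4SZ
import Cfsg.Agent.Lib.Helper23.TwAutFin

/-! abstract main theorem for Out of the large Ree groups -/

set_option autoImplicit false

namespace Cfsg.Agent.Lib.Helper22.OF4
open Cfsg.Agent.Lib.Helper45.AutAbs Cfsg.Agent.Lib.Helper23.TwAut

variable {G : Type*} [Group G] {K : Type*} [Field K]

/-- the hypotheses -/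
structure MSys (Θ : K →+* K) (xb yb : K → G) (xa ya : K → K → G) (na : G)
    (Xp Xm : Fin 2 → Subgroup G) (U V B N : Subgroup G) (P : Fin 2 → Subgroup G) (nn : Fin 2 → G) (n0 : G)
    (ι : Fin 2 → Fin 2) : Prop where
  hΘ : ∀ t, Θ (Θ t) ^ 2 = t
  hΘ1 : ∃ s, Θ s ≠ s
  PS : PSys Xp Xm U V B N P nn n0 ι
  hXb : ∀ g, g ∈ Xp 0 ↔ ∃ t, g = xb t
  hYb : ∀ g, g ∈ Xm 0 ↔ ∃ t, g = yb t
  hXa : ∀ g, g ∈ Xp 1 ↔ ∃ t u, g = xa t u
  hYa : ∀ g, g ∈ Xm 1 ↔ ∃ t u, g = ya t u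
  hnn : nn 1 = na
  TS : TSys (fun _ : Unit => (⊤ : Subfield K)) (fun _ => xb) (fun _ => yb) (fun _ => Xp 0) (fun _ => Xm 0)
      V B (fun _ _ => False) ()
  xa_mul : ∀ t u t' u', xa t u * xa t' u' = xa (t + t') (u + u' + Θ t * t')
  xa_inj : ∀ t u t' u', xa t u = xa t' u' → t = t' ∧ u = u'
  ya_inj : ∀ t u t' u', ya t u = ya t' u' → t = t' ∧ u = u'
  xa_B : ∀ t u, xa t u ∈ B
  hb_act : ∀ c, c ≠ 0 → ∀ t u, hb xb yb c * xa t u * (hb xb yb c)⁻¹ = xa (c⁻¹ * t) ((c * Θ c)⁻¹ * u)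
  hb_uv : ∀ c, c ≠ 0 → Mp (cj (hb xb yb c)) U U ∧ Mp (cj (hb xb yb c)) V V
  diag_a : ∀ d, d ≠ 0 → ∃ h : G, Mp (cj h) U U ∧ Mp (cj h) V V ∧ (∀ t, h * xb t * h⁻¹ = xb t) ∧
      (∀ t, h * yb t * h⁻¹ = yb t) ∧ ∀ t u, h * xa t u * h⁻¹ = xa (d * t) (d * Θ d * u)
  na_eq : na = xa 1 0 * ya 0 1 * xa 1 1
  na_dc : ∀ b ∈ B, ∃ b' ∈ B, ∃ x ∈ Xp 1, na * b = b' * na * x
  na_X : ∀ t u, na * xa t u * na⁻¹ = ya t u
  na_hb : ∀ c, c ≠ 0 → na * hb xb yb c * na⁻¹ ∈ B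
  gen : Subgroup.closure ((Set.range xb ∪ Set.range yb) ∪
      ({g | ∃ t u, g = xa t u} ∪ {g | ∃ t u, g = ya t u})) = ⊤
  fld : ∀ τ : K ≃+* K, ∃ φ : G ≃* G, IsStd xb yb xa ya φ τ ∧ Mp φ U U ∧ Mp φ V V
  lin : ∀ x, Mp (cj x) U U → Mp (cj x) V V → ∃ c, ∀ t, x * xb t * x⁻¹ = xb (c * t)

namespace MSys

variable {Θ : K →+* K} {xb yb : K → G} {xa ya : K → K → G} {na : G}
    {Xp Xm : Fin 2 → Subgroup G} {U V B N : Subgroup G} {P : Fin 2 → Subgroup G} {nn : Fin 2 → G} {n0 : G}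
    {ι : Fin 2 → Fin 2} (M : MSys Θ xb yb xa ya na Xp Xm U V B N P nn n0 ι)
include M

theorem xb_inj {t u : K} (h : xb t = xb u) : t = u :=
  M.TS.xp_injective () (Subfield.mem_top _) (Subfield.mem_top _) h

theorem yb_inj {t u : K} (h : yb t = yb u) : t = u :=
  M.TS.xm_injective () (Subfield.mem_top _) (Subfield.mem_top _) h

theorem card_Xm0 : Nat.card (Xm 0) = Nat.card K := by
  symm
  refine Nat.card_congr (Equiv.ofBijective (fun t => ⟨yb t, (M.hYb _).2 ⟨t, rfl⟩⟩) ⟨?_, ?_⟩)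
  · intro t u h
    exact M.yb_inj (congrArg Subtype.val h)
  · rintro ⟨g, hg⟩
    obtain ⟨t, rfl⟩ := (M.hYb _).1 hg
    exact ⟨t, rfl⟩

theorem card_Xm1 : Nat.card (Xm 1) = Nat.card K * Nat.card K := by
  rw [← Nat.card_prod]
  symm
  refine Nat.card_congr (Equiv.ofBijective (fun p : K × K => ⟨ya p.1 p.2, (M.hYa _).2 ⟨_, _, rfl⟩⟩) ⟨?_, ?_⟩)
  · rintro ⟨t, u⟩ ⟨t', u'⟩ h
    obtain ⟨h1, h2⟩ := M.ya_inj _ _ _ _ (congrArg Subtype.val h)
    exact Prod.ext h1 h2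
  · rintro ⟨g, hg⟩
    obtain ⟨t, u, rfl⟩ := (M.hYa _).1 hg
    exact ⟨(t, u), rfl⟩

/-- automorphisms stabilising `U` and `V` stabilise the four root subgroups -/
theorem stab [Finite K] {θ : G ≃* G} (hU : Mp θ U U) (hV : Mp θ V V) (i : Fin 2) :
    Mp θ (Xp i) (Xp i) ∧ Mp θ (Xm i) (Xm i) := by
  obtain ⟨ρ, hρ⟩ := M.PS.exists_perm hU hV
  have hK : 1 < Nat.card K := Finite.one_lt_card
  have hne : Nat.card (Xm 0) ≠ Nat.card (Xm 1) := by
    rw [M.card_Xm0, M.card_Xm1]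
    intro h
    nlinarith
  have h0 : ρ 0 = 0 := by
    by_contra h
    have h1 : ρ 0 = 1 := by
      have := (ρ 0).2
      apply Fin.ext
      have h' : (ρ 0 : ℕ) ≠ 0 := fun e => h (Fin.ext e)
      show (ρ 0 : ℕ) = 1
      omega
    have := mp_card (hρ 0).2
    rw [h1] at this
    exact hne this
  have h1 : ρ 1 = 1 := by
    by_contra h
    have h1 : ρ 1 = 0 := by
      apply Fin.ext
      have h' : (ρ 1 : ℕ) ≠ 1 := fun e => h (Fin.ext e)
      have := (ρ 1).2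
      show (ρ 1 : ℕ) = 0
      omega
    have := mp_card (hρ 1).2
    rw [h1] at this
    exact hne this.symm
  have hi : ρ i = i := by
    fin_cases i
    · exact h0
    · exact h1
  have := hρ i
  rwa [hi] at this

theorem hb_fix {θ : G ≃* G} (hx : ∀ t, θ (xb t) = xb t) (hy : ∀ t, θ (yb t) = yb t) (c : K) :
    θ (hb xb yb c) = hb xb yb c := by
  simp only [hb, hT, nT, map_mul, hx, hy]

theorem hb_xb {c : K} (hc : c ≠ 0) (u : K) : hb xb yb c * xb u * (hb xb yb c)⁻¹ = xb (c ^ 2 * u) :=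
  M.TS.h_self () c (Subfield.mem_top _) hc u (Subfield.mem_top _)

theorem hb_yb [Finite K] {c : K} (hc : c ≠ 0) (u : K) :
    hb xb yb c * yb u * (hb xb yb c)⁻¹ = yb ((c ^ 2)⁻¹ * u) := by
  obtain ⟨hU, hV⟩ := M.hb_uv c hc
  obtain ⟨τ', c', hc', h⟩ := M.TS.exists_std (θ := cj (hb xb yb c)) (fun _ => M.stab hU hV 0)
  have h1 : ∀ t, c' () * τ' t = c ^ 2 * t := by
    intro t
    have := (h () t (Subfield.mem_top _)).1
    rw [cj_apply, M.hb_xb hc] at this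
    exact (M.xb_inj this).symm
  have h2 : c' () = c ^ 2 := by
    have := h1 1
    rwa [map_one, mul_one, mul_one] at this
  have h3 : τ' u = u := by
    have := h1 u
    rw [h2] at this
    exact mul_left_cancel₀ (pow_ne_zero 2 hc) this
  have := (h () u (Subfield.mem_top _)).2
  rw [cj_apply, h2, h3] at this
  exact this

theorem nu_one {w : K} (h : w * Θ w = 1) : w = 1 := by
  have hw : w ≠ 0 := by
    rintro rfl
    simp at h
  have h1 : Θ w = w⁻¹ := eq_inv_of_mul_eq_one_right h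
  have h2 : Θ (Θ w) = w := by rw [h1, map_inv₀, h1, inv_inv]
  have h3 := M.hΘ w
  rw [h2, sq] at h3
  exact mul_left_cancel₀ hw (h3.trans (mul_one w).symm)

theorem ext_of_fix {θ : G ≃* G} (hx : ∀ t, θ (xb t) = xb t) (hy : ∀ t, θ (yb t) = yb t)
    (hxa : ∀ t u, θ (xa t u) = xa t u) (hya : ∀ t u, θ (ya t u) = ya t u) (g : G) : θ g = g := by
  have : θ.toMonoidHom = MonoidHom.id G := by
    apply MonoidHom.eq_of_eqOn_dense M.gen
    rintro g ((⟨t, rfl⟩ | ⟨t, rfl⟩) | (⟨t, u, rfl⟩ | ⟨t, u, rfl⟩))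
    · exact hx t
    · exact hy t
    · exact hxa t u
    · exact hya t u
  exact DFunLike.congr_fun this g

theorem std_unique {θ θ' : G ≃* G} {τ : K ≃+* K} (h : IsStd xb yb xa ya θ τ) (h' : IsStd xb yb xa ya θ' τ) :
    θ = θ' := by
  have : θ.toMonoidHom = θ'.toMonoidHom := by
    apply MonoidHom.eq_of_eqOn_dense M.gen
    rintro g ((⟨t, rfl⟩ | ⟨t, rfl⟩) | (⟨t, u, rfl⟩ | ⟨t, u, rfl⟩))
    · exact (h.1 t).trans (h'.1 t).symm
    · exact (h.2.1 t).trans (h'.2.1 t).symm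
    · exact (h.2.2.1 t u).trans (h'.2.2.1 t u).symm
    · exact (h.2.2.2 t u).trans (h'.2.2.2 t u).symm
  exact MulEquiv.ext fun g => DFunLike.congr_fun this g

/-- an automorphism stabilising `U`, `V` and fixing `X_{±b}`, `X_a` pointwise is trivial -/
theorem eq_of_fix [Finite K] {θ : G ≃* G} (hU : Mp θ U U) (hV : Mp θ V V) (hx : ∀ t, θ (xb t) = xb t)
    (hy : ∀ t, θ (yb t) = yb t) (hxa : ∀ t u, θ (xa t u) = xa t u) (g : G) : θ g = g := by
  obtain ⟨s, hs⟩ := M.hΘ1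
  have hs0 : s ≠ 0 := by
    rintro rfl
    simp at hs
  have hs1 : s ≠ 1 := by
    rintro rfl
    simp at hs
  have hB := M.PS.mp_B hU
  have hXmV : ∀ i, Xm i ≤ V := fun i => by
    rw [← M.PS.hPV i]; exact inf_le_right
  have hXmP : ∀ i, Xm i ≤ P i := fun i => by
    rw [← M.PS.hPV i]; exact inf_le_left
  have hXB : Xp 1 ≤ B := by
    intro x hx'
    obtain ⟨t, u, rfl⟩ := (M.hXa _).1 hx'
    exact M.xa_B t u
  have hya01 : ya 0 1 ∈ Xm 1 := (M.hYa _).2 ⟨_, _, rfl⟩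
  have hna : θ na = na := by
    refine na_fixed M.PS.BV hXB na (hb xb yb s) (xa 1 0) (ya 0 1) (xa 1 1) ((M.hXa _).2 ⟨_, _, rfl⟩)
      (hXmV 1 hya01) ((M.hXa _).2 ⟨_, _, rfl⟩) M.na_eq M.na_dc ?_ (M.na_hb s hs0) ?_ ?_ θ hB hV ?_
      (M.hb_fix hx hy s) ?_
    · intro x hx'
      obtain ⟨t, u, rfl⟩ := (M.hXa _).1 hx'
      rw [M.na_X]
      exact hXmV 1 ((M.hYa _).2 ⟨_, _, rfl⟩)
    · intro x hx'
      obtain ⟨t, u, rfl⟩ := (M.hXa _).1 hx'
      have := M.hb_act s hs0 (s * t) ((s * Θ s) * u)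
      rw [inv_mul_cancel_left₀ hs0, inv_mul_cancel_left₀ (mul_ne_zero hs0 ((map_ne_zero Θ).2 hs0))] at this
      rw [← this]
      refine (M.hXa _).2 ⟨s * t, s * Θ s * u, ?_⟩
      group
    · intro x hx' e
      obtain ⟨t, u, rfl⟩ := (M.hXa _).1 hx'
      have e1 : hb xb yb s * xa t u * (hb xb yb s)⁻¹ = xa t u := by
        conv_lhs => rw [← e]
        group
      rw [M.hb_act s hs0] at e1
      obtain ⟨e2, e3⟩ := M.xa_inj _ _ _ _ e1
      have ht : t = 0 := by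
        by_contra ht
        have : s⁻¹ = 1 := mul_right_cancel₀ ht (e2.trans (one_mul t).symm)
        exact hs1 (inv_eq_one.1 this)
      have hu : u = 0 := by
        by_contra hu
        have : (s * Θ s)⁻¹ = 1 := mul_right_cancel₀ hu (e3.trans (one_mul u).symm)
        exact hs1 (M.nu_one (inv_eq_one.1 this))
      rw [ht, hu]
      have := M.xa_mul 0 0 0 0
      simp only [add_zero, map_zero, mul_zero] at this
      exact mul_eq_left.1 this
    · intro x hx'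
      obtain ⟨t, u, rfl⟩ := (M.hXa _).1 hx'
      exact hxa t u
    · have h1 : θ na ∈ P 1 := by
        rw [M.na_eq, map_mul, map_mul, hxa, hxa]
        exact mul_mem (mul_mem (M.PS.hBP 1 (M.xa_B _ _)) (hXmP 1 ((M.stab hU hV 1).2.mem hya01)))
          (M.PS.hBP 1 (M.xa_B _ _))
      rcases M.PS.hP 1 _ h1 with h2 | h2
      · exfalso
        have := (hB na).1 h2
        rw [← M.hnn] at this
        exact M.PS.hnB 1 this
      · rw [M.hnn] at h2
        exact h2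
  apply M.ext_of_fix hx hy hxa
  intro t u
  rw [← M.na_X, map_mul, map_mul, map_inv, hna, hxa]

/-- every automorphism is inner times field -/
theorem exists_std_main [Finite K] [CharP K 2] (θ : G ≃* G) :
    ∃ (x : G) (τ : K ≃+* K) (θ₀ : G ≃* G), IsStd xb yb xa ya θ₀ τ ∧ ∀ y, θ y = x * θ₀ y * x⁻¹ := by
  obtain ⟨g, hU, hV⟩ := normalize M.PS.hSyl M.PS.hBU M.PS.bruhat M.PS.hn0
    (fun g hg hg' => M.PS.BV g (M.PS.U_le hg) hg') M.PS.hopp θ
  obtain ⟨τ, c, hc, h⟩ := M.TS.exists_std (θ := θ.trans (cj g)) (fun _ => M.stab hU hV 0)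
  obtain ⟨e, he⟩ : ∃ e, c () = e * e :=
    FiniteField.isSquare_of_char_two (ringChar.eq_iff.2 (inferInstance : CharP K 2)) (c ())
  have he0 : e ≠ 0 := by
    rintro rfl
    exact (hc ()).2 (by rw [he, mul_zero])
  have he2 : e ^ 2 = c () := by rw [he, sq]
  obtain ⟨hU2, hV2⟩ := M.hb_uv e he0
  obtain ⟨φ, hφ, hφU, hφV⟩ := M.fld τ
  set θ₃ := ((θ.trans (cj g)).trans (cj (hb xb yb e)⁻¹)).trans φ.symm with hθ₃
  have hU3 : Mp θ₃ U U := (hU.trans (mp_cj_inv hU2)).trans hφU.symm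
  have hV3 : Mp θ₃ V V := (hV.trans (mp_cj_inv hV2)).trans hφV.symm
  have hx3 : ∀ t, θ₃ (xb t) = xb t := by
    intro t
    have h1 := (h () t (Subfield.mem_top _)).1
    have h2 := M.hb_xb he0 (τ t)
    rw [he2] at h2
    rw [hθ₃, MulEquiv.trans_apply, MulEquiv.trans_apply, h1, ← h2, cj_apply, MulEquiv.symm_apply_eq, hφ.1]
    group
  have hy3 : ∀ t, θ₃ (yb t) = yb t := by
    intro t
    have h1 := (h () t (Subfield.mem_top _)).2
    have h2 := M.hb_yb he0 (τ t)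
    rw [he2] at h2
    rw [hθ₃, MulEquiv.trans_apply, MulEquiv.trans_apply, h1, ← h2, cj_apply, MulEquiv.symm_apply_eq, hφ.2.1]
    group
  have hXa3 := (M.stab hU3 hV3 1).1
  obtain ⟨d, hd, hd'⟩ := sz Θ M.hΘ M.hΘ1 xa (hb xb yb) M.xa_mul M.xa_inj M.hb_act θ₃
    (fun t u => (M.hXa _).1 (hXa3.mem ((M.hXa _).2 ⟨t, u, rfl⟩)))
    (fun t u => by
      obtain ⟨k, hk, e⟩ := hXa3.exists_preimage ((M.hXa _).2 ⟨t, u, rfl⟩)
      obtain ⟨t', u', rfl⟩ := (M.hXa _).1 hk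
      exact ⟨t', u', e⟩)
    (fun c _ => M.hb_fix hx3 hy3 c)
  obtain ⟨k, hkU, hkV, hkx, hky, hka⟩ := M.diag_a d hd
  have key := M.eq_of_fix (θ := θ₃.trans (cj k⁻¹)) (hU3.trans (mp_cj_inv hkU)) (hV3.trans (mp_cj_inv hkV))
    (fun t => by
      rw [MulEquiv.trans_apply, hx3, cj_apply]
      conv_lhs => rw [← hkx t]
      group)
    (fun t => by
      rw [MulEquiv.trans_apply, hy3, cj_apply]
      conv_lhs => rw [← hky t]
      group)
    (fun t u => by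
      rw [MulEquiv.trans_apply, hd', cj_apply, ← hka]
      group)
  refine ⟨g⁻¹ * hb xb yb e * φ k, τ, φ, hφ, fun y => ?_⟩
  have h1 := key y
  rw [MulEquiv.trans_apply, cj_apply, inv_inv] at h1
  have h2 : θ₃ y = k * y * k⁻¹ := by
    have : θ₃ y = k * (k⁻¹ * θ₃ y * k) * k⁻¹ := by group
    rw [this, h1]
  rw [hθ₃, MulEquiv.trans_apply, MulEquiv.symm_apply_eq, MulEquiv.trans_apply, MulEquiv.trans_apply,
    cj_apply, cj_apply, map_mul, map_mul, map_inv, inv_inv] at h2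
  have h3 : θ y = g⁻¹ * (hb xb yb e * ((hb xb yb e)⁻¹ * (g * θ y * g⁻¹) * hb xb yb e) * (hb xb yb e)⁻¹) * g := by
    group
  rw [h3, h2]
  group

theorem card_out [Finite K] [CharP K 2] : Nat.card (Cfsg.Out G) = Nat.card (K ≃+* K) := by
  have := card_out_abs (G := G) (T := K ≃+* K) (H := Unit) (IsStd xb yb xa ya) (fun _ τ => τ) (fun _ => 1)
    (fun θ θ' τ h h' => M.std_unique h h')
    (fun τ => by
      obtain ⟨φ, hφ, -⟩ := M.fld τ
      exact ⟨φ, hφ⟩)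
    M.exists_std_main
    (fun θ τ _ h => by
      have : θ.trans (MulAut.conj (1 : G)) = θ := by
        ext y
        simp
      rw [this]; exact h)
    (fun τ a b _ => Subsingleton.elim a b)
    (fun θ θ' τ τ' x h h' hx => by
      refine ⟨(), ?_⟩
      obtain ⟨φ, hφ, hφU, hφV⟩ := M.fld τ
      obtain ⟨φ', hφ', hφU', hφV'⟩ := M.fld τ'
      obtain rfl := M.std_unique h hφ
      obtain rfl := M.std_unique h' hφ'
      have e : cj x = θ.symm.trans θ' := by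
        ext y
        rw [cj_apply, MulEquiv.trans_apply, hx, MulEquiv.apply_symm_apply]
      obtain ⟨c, hc⟩ := M.lin x (e ▸ hφU.symm.trans hφU') (e ▸ hφV.symm.trans hφV')
      have h1 : ∀ s, c * τ s = τ' s := by
        intro s
        have := hx (xb s)
        rw [h.1, h'.1, hc] at this
        exact (M.xb_inj this).symm
      have h2 : c = 1 := by
        have := h1 1
        rwa [map_one, map_one, mul_one] at this
      ext s
      rw [← h1 s, h2, one_mul])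
  rw [(Nat.card_unique : Nat.card Unit = 1), mul_one] at this
  exact this.symm

end MSys

end Cfsg.Agent.Lib.Helper22.OF4
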