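import Cfsg.Agent.Lib.Helper22.Par3

/-!
# Parabolic subgroups: the grading of the adjoint module and `U_J ∩ L_J = 1`
-/

set_option autoImplicit false
set_option linter.unusedSectionVars false

namespace Cfsg.Agent.Lib.Helper22
open Cfsg.Lie Matrix Cfsg.Agent.Lib.Helper23

section abstract
variable {ι F : Type*} [Fintype ι] [DecidableEq ι] [Field F] (lev : ι → ℤ)

/-- `A` preserves the level. -/
def LevP (A : Matrix ι ι F) : Prop := ∀ a b, A a b ≠ 0 → lev a = lev b

/-- `A - 1` strictly raises the level. -/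
def LevU (A : Matrix ι ι F) : Prop := ∀ a b, (A - 1) a b ≠ 0 → lev b < lev a

variable {lev}

theorem LevP.one : LevP lev (1 : Matrix ι ι F) := by
  intro a b hab
  by_cases h : a = b
  · rw [h]
  · exact absurd (Matrix.one_apply_ne h) hab

theorem LevP.mul {A B : Matrix ι ι F} (hA : LevP lev A) (hB : LevP lev B) : LevP lev (A * B) := by
  intro a b hab
  rw [Matrix.mul_apply] at hab
  obtain ⟨c, _, hc⟩ := Finset.exists_ne_zero_of_sum_ne_zero hab
  rw [hA a c (left_ne_zero_of_mul hc), hB c b (right_ne_zero_of_mul hc)]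

theorem LevU.one : LevU lev (1 : Matrix ι ι F) := by
  intro a b hab
  simp at hab

theorem LevU.mul {A B : Matrix ι ι F} (hA : LevU lev A) (hB : LevU lev B) : LevU lev (A * B) := by
  intro a b hab
  have e : A * B - 1 = (A - 1) * (B - 1) + (A - 1) + (B - 1) := by noncomm_ring
  rw [e, Matrix.add_apply, Matrix.add_apply] at hab
  by_cases h1 : (A - 1) a b = 0
  · by_cases h2 : (B - 1) a b = 0
    · rw [h1, h2, add_zero, add_zero, Matrix.mul_apply] at hab
      obtain ⟨c, _, hc⟩ := Finset.exists_ne_zero_of_sum_ne_zero hab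
      exact (hB c b (right_ne_zero_of_mul hc)).trans (hA a c (left_ne_zero_of_mul hc))
    · exact hB a b h2
  · exact hA a b h1

variable (lev) (F)

/-- the group of the invertible matrices preserving the level. -/
def levPSub : Subgroup (GL ι F) where
  carrier := {g | LevP lev (g : Matrix ι ι F) ∧ LevP lev ((g⁻¹ : GL ι F) : Matrix ι ι F)}
  mul_mem' := by
    rintro g h ⟨g1, g2⟩ ⟨h1, h2⟩
    refine ⟨by rw [Units.val_mul]; exact g1.mul h1, ?_⟩
    rw [_root_.mul_inv_rev, Units.val_mul]
    exact h2.mul g2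
  one_mem' := ⟨LevP.one, by rw [inv_one]; exact LevP.one⟩
  inv_mem' := by
    rintro g ⟨g1, g2⟩
    exact ⟨g2, by rw [inv_inv]; exact g1⟩

/-- the group of the invertible matrices `g` with `g - 1` raising the level. -/
def levUSub : Subgroup (GL ι F) where
  carrier := {g | LevU lev (g : Matrix ι ι F) ∧ LevU lev ((g⁻¹ : GL ι F) : Matrix ι ι F)}
  mul_mem' := by
    rintro g h ⟨g1, g2⟩ ⟨h1, h2⟩
    refine ⟨by rw [Units.val_mul]; exact g1.mul h1, ?_⟩
    rw [_root_.mul_inv_rev, Units.val_mul]
    exact h2.mul g2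
  one_mem' := ⟨LevU.one, by rw [inv_one]; exact LevU.one⟩
  inv_mem' := by
    rintro g ⟨g1, g2⟩
    exact ⟨g2, by rw [inv_inv]; exact g1⟩

theorem levU_inf_levP : levUSub F lev ⊓ levPSub F lev = ⊥ := by
  rw [eq_bot_iff]
  rintro g ⟨⟨h1, _⟩, ⟨h2, _⟩⟩
  rw [Subgroup.mem_bot]
  apply Units.ext
  ext a b
  by_contra hne
  have h3 : ((g : Matrix ι ι F) - 1) a b ≠ 0 := by
    rw [Matrix.sub_apply]
    exact sub_ne_zero.2 hne
  have h4 := h1 a b h3
  have hab : a ≠ b := by
    rintro rfl
    exact lt_irrefl _ h4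
  have h5 : (g : Matrix ι ι F) a b ≠ 0 := by
    rw [Matrix.sub_apply, Matrix.one_apply_ne hab, sub_zero] at h3
    exact h3
  rw [h2 a b h5] at h4
  exact lt_irrefl _ h4

end abstract

variable {D : ChevalleyDatum} {F : Type*} [Field F] {co : ℕ → ℕ → ℤ}

/-- the weight of a basis vector. -/
def wtI (D : ChevalleyDatum) (co : ℕ → ℕ → ℤ) : D.Idx → ℕ → ℤ
  | Sum.inl _, _ => 0
  | Sum.inr s, j => co s.val j

theorem chainCoeff_wt (h3 : coChk3 D co = true) {r s u : ℕ} (hr : r < D.nroots) {x : ℕ × ℤ}
    (hx : x ∈ D.chainCoeff r s u) :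
    1 ≤ x.1 ∧ ∀ j < D.rank, co u j = co s j + (x.1 : ℤ) * co r j := by
  unfold ChevalleyDatum.chainCoeff at hx
  simp only [List.mem_flatMap, List.mem_filter, List.mem_map, decide_eq_true_eq] at hx
  obtain ⟨e, ⟨he, hes⟩, q, ⟨hq, hqu⟩, rfl⟩ := hx
  unfold coChk3 at h3
  rw [List.all_eq_true] at h3
  have h4 := h3 r (List.mem_range.2 hr)
  rw [List.all_eq_true] at h4
  have h5 := h4 e he
  rw [List.all_eq_true] at h5
  have h6 := h5 q hq
  rw [List.all_eq_true] at h6
  refine ⟨by simp, fun j hj => ?_⟩
  have h7 := h6 j (List.mem_range.2 hj)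
  rw [beq_iff_eq, hqu, hes] at h7
  exact h7

theorem x_support (pf : ParFacts D co) {r : ℕ} (hr : r < D.nroots) (t : F) (a b : D.Idx)
    (h : (D.x F r t - 1) a b ≠ 0) :
    ∃ k : ℕ, 1 ≤ k ∧ ∀ j < D.rank, wtI D co a j = wtI D co b j + (k : ℤ) * co r j := by
  rw [x_of_lt hr, Matrix.sub_apply] at h
  rcases b with i | s
  · rcases a with i' | u
    · exfalso
      apply h
      simp [ChevalleyDatum.xMat, Matrix.one_apply]
    · by_cases hu : u = ⟨r, hr⟩
      · subst hu
        exact ⟨1, le_rfl, fun j _ => by simp [wtI]⟩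
      · exfalso
        apply h
        simp [ChevalleyDatum.xMat, hu]
  · by_cases hs : s = ⟨r, hr⟩
    · exfalso
      apply h
      subst hs
      rcases a with i' | u
      · simp [ChevalleyDatum.xMat]
      · simp [ChevalleyDatum.xMat, Matrix.one_apply]
    · by_cases hs2 : s.val = D.negIdx.getD r 0
      · have hneg : ∀ j < D.rank, co s.val j = - co r j := fun j hj => by
          rw [hs2]; exact pf.cneg r hr j hj
        rcases a with i' | u
        · exact ⟨1, le_rfl, fun j hj => by simp [wtI, hneg j hj]⟩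
        · by_cases hus : u = s
          · exfalso
            apply h
            subst hus
            simp [ChevalleyDatum.xMat, hs, hs2]
          · by_cases hur : u = ⟨r, hr⟩
            · subst hur
              exact ⟨2, by norm_num, fun j hj => by simp only [wtI, hneg j hj]; push_cast; ring⟩
            · exfalso
              apply h
              simp [ChevalleyDatum.xMat, hs, hs2, hus, hur]
      · rcases a with i' | u
        · exfalso
          apply h
          simp only [ChevalleyDatum.xMat, Matrix.of_apply, if_neg hs, if_neg hs2]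
          simp
        · have h1 : ((D.chainCoeff r s.val u.val).map fun km => ((km.2 : ℤ) : F) * t ^ km.1).sum ≠ 0 := by
            intro h0
            apply h
            simp only [ChevalleyDatum.xMat, Matrix.of_apply, if_neg hs, if_neg hs2, h0, add_zero,
              Matrix.one_apply, Sum.inr.injEq, sub_self]
          have h2 : D.chainCoeff r s.val u.val ≠ [] := by
            intro h0
            rw [h0] at h1
            exact h1 rfl
          obtain ⟨x, hx⟩ := List.exists_mem_of_ne_nil _ h2
          obtain ⟨h3, h4⟩ := chainCoeff_wt pf.chain hr hx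
          exact ⟨x.1, h3, fun j hj => h4 j hj⟩

end Cfsg.Agent.Lib.Helper22
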