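import Cfsg.Agent.Lib.Helper22.Par4

/-!
# Parabolic subgroups: `U_J ∩ L_J = 1`
-/

set_option autoImplicit false

namespace Cfsg.Agent.Lib.Helper22
open Cfsg.Lie Matrix Cfsg.Agent.Lib.Helper23
open scoped Classical

variable {D : ChevalleyDatum} {F : Type*} [Field F] {co : ℕ → ℕ → ℤ}

theorem cf_nonneg {r : ℕ} (hr : D.IsPosRoot r) (j : ℕ) : 0 ≤ cf D r j := by
  unfold cf
  rw [Array.getD_eq_getD_getElem?]
  cases h : (D.coroot.getD r #[])[j]? with
  | none => simp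
  | some c =>
    simp only [Option.getD_some]
    exact hr.2 c (Array.mem_toList_iff.2 (Array.mem_of_getElem? h))

/-- the `J`-level of a basis vector -/
noncomputable def levJ (D : ChevalleyDatum) (co : ℕ → ℕ → ℤ) (J : Set ℕ) (a : D.Idx) : ℤ :=
  ∑ j ∈ (Finset.range D.rank).filter (· ∉ J), wtI D co a j

/-- the `J`-level of a root -/
noncomputable def levR (D : ChevalleyDatum) (co : ℕ → ℕ → ℤ) (J : Set ℕ) (r : ℕ) : ℤ :=
  ∑ j ∈ (Finset.range D.rank).filter (· ∉ J), co r j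

theorem x_lev (pf : ParFacts D co) (J : Set ℕ) {r : ℕ} (hr : r < D.nroots) (t : F) (a b : D.Idx)
    (h : (D.x F r t - 1) a b ≠ 0) :
    ∃ k : ℕ, 1 ≤ k ∧ levJ D co J a = levJ D co J b + (k : ℤ) * levR D co J r := by
  obtain ⟨k, hk, e⟩ := x_support pf hr t a b h
  refine ⟨k, hk, ?_⟩
  unfold levJ levR
  rw [Finset.mul_sum, ← Finset.sum_add_distrib]
  apply Finset.sum_congr rfl
  intro j hj
  exact e j (Finset.mem_range.1 (Finset.mem_filter.1 hj).1)

theorem levR_eq_zero (pf : ParFacts D co) {J : Set ℕ} {r : ℕ} (h : D.InRootSub J r) : levR D co J r = 0 := by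
  unfold levR
  apply Finset.sum_eq_zero
  intro j hj
  obtain ⟨h1, h2⟩ := Finset.mem_filter.1 hj
  have h3 : cf D r j = 0 := h.2 j (Finset.mem_range.1 h1) h2
  have h4 := pf.sg r h.1 j (Finset.mem_range.1 h1)
  rw [h3, Int.sign_zero] at h4
  exact Int.sign_eq_zero_iff_zero.1 h4

theorem levR_pos (pf : ParFacts D co) {J : Set ℕ} {r : ℕ} (hr : D.IsPosRoot r) (h : ¬ D.InRootSub J r) :
    0 < levR D co J r := by
  have hnn : ∀ j < D.rank, 0 ≤ co r j := by
    intro j hj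
    have h4 := pf.sg r hr.1 j hj
    have h5 := Int.sign_nonneg_iff.2 (cf_nonneg hr j)
    rw [← h4] at h5
    exact Int.sign_nonneg_iff.1 h5
  have hex : ∃ i < D.rank, i ∉ J ∧ cf D r i ≠ 0 := by
    by_contra hno
    push Not at hno
    exact h ⟨hr.1, hno⟩
  obtain ⟨i, hi, hiJ, hne⟩ := hex
  unfold levR
  apply Finset.sum_pos'
  · intro j hj
    exact hnn j (Finset.mem_range.1 (Finset.mem_filter.1 hj).1)
  · refine ⟨i, Finset.mem_filter.2 ⟨Finset.mem_range.2 hi, hiJ⟩, ?_⟩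
    apply lt_of_le_of_ne (hnn i hi)
    intro h0
    have h4 := pf.sg r hr.1 i hi
    rw [← h0, Int.sign_zero] at h4
    exact hne (Int.sign_eq_zero_iff_zero.1 h4.symm)

theorem levP_x (pf : ParFacts D co) {J : Set ℕ} {r : ℕ} (h : D.InRootSub J r) (t : F) :
    LevP (levJ D co J) (D.x F r t) := by
  intro a b hab
  by_cases hab' : a = b
  · rw [hab']
  · have h1 : (D.x F r t - 1) a b ≠ 0 := by
      rw [Matrix.sub_apply, Matrix.one_apply_ne hab', sub_zero]
      exact hab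
    obtain ⟨k, _, e⟩ := x_lev pf J h.1 t a b h1
    rw [e, levR_eq_zero pf h, mul_zero, add_zero]

theorem levU_x (pf : ParFacts D co) {J : Set ℕ} {r : ℕ} (hr : D.IsPosRoot r) (h : ¬ D.InRootSub J r) (t : F) :
    LevU (levJ D co J) (D.x F r t) := by
  intro a b hab
  obtain ⟨k, hk, e⟩ := x_lev pf J hr.1 t a b hab
  rw [e]
  have h1 := levR_pos pf hr h
  have h2 : (0 : ℤ) < (k : ℤ) := by exact_mod_cast hk
  have := mul_pos h2 h1
  omega

theorem levP_dg (lev : D.Idx → ℤ) (χ : ℕ → F) : LevP lev (dg D χ) := by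
  intro a b hab
  by_cases h : a = b
  · rw [h]
  · exact absurd (Matrix.diagonal_apply_ne _ h) hab

section main
variable (b : Bundle D F) (pf : ParFacts D co)
include b pf

theorem UJ_le_levU (J : Set ℕ) : D.unipotentRadical F J ≤ levUSub F (levJ D co J) := by
  rw [unipotentRadical_eq b.hA, Subgroup.closure_le]
  rintro g ⟨r, t, hr, hJ, rfl⟩
  refine ⟨levU_x pf hr hJ t, ?_⟩
  rw [b.hA.X_inv]
  exact levU_x pf hr hJ (-t)

theorem levi_le_levP (J : Set ℕ) : D.leviSubgroup F J ≤ levPSub F (levJ D co J) := by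
  rw [levi_eq b.hA]
  refine sup_le ?_ ?_
  · intro h hh
    obtain ⟨χ, hχ⟩ := b.hA.diag_isTor b.hT hh
    refine ⟨?_, ?_⟩
    · rw [hχ.2.1]; exact levP_dg _ _
    · rw [(hχ.inv b.hA).2.1]; exact levP_dg _ _
  · rw [Subgroup.closure_le]
    rintro g ⟨r, t, hJ, rfl⟩
    refine ⟨levP_x pf hJ t, ?_⟩
    rw [b.hA.X_inv]
    exact levP_x pf hJ (-t)

/-- `U_J ∩ L_J = 1`. -/
theorem UJ_inf_levi (J : Set ℕ) : D.unipotentRadical F J ⊓ D.leviSubgroup F J = ⊥ := by
  rw [eq_bot_iff, ← levU_inf_levP F (levJ D co J)]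
  exact inf_le_inf (UJ_le_levU b pf J) (levi_le_levP b pf J)

end main

end Cfsg.Agent.Lib.Helper22
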