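import Cfsg.Agent.Lib.Helper22.Par7
import Cfsg.Agent.Lib.Helper37.CharP

/-!
# Parabolic subgroups: `F*(P_J)` is a `p`-group
-/

set_option autoImplicit false

namespace Cfsg.Agent.Lib.Helper22
open Cfsg.Lie Matrix Cfsg.Agent.Lib.Helper23

variable {D : ChevalleyDatum} {F : Type*} [Field F] {co : ℕ → ℕ → ℤ}

theorem isPGroup_of_forall_mem {G : Type*} [Group G] {p : ℕ} {U : Subgroup G} (hU : IsPGroup p ↥U)
    {P : Subgroup G} (C : Subgroup ↥P) (h : ∀ x ∈ C, ((x : ↥P) : G) ∈ U) : IsPGroup p ↥C := by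
  intro x
  obtain ⟨k, hk⟩ := hU ⟨((x : ↥P) : G), h x x.2⟩
  refine ⟨k, ?_⟩
  apply Subtype.ext
  apply Subtype.ext
  have := congrArg Subtype.val hk
  simpa using this

theorem s2155_of [Fintype F] (p : ℕ) [Fact p.Prime] [CharP F p] (b : Bundle D F) (pf : ParFacts D co)
    (hCF : CommF D F) (hUC : UComm D F) (hS : USep b.hA)
    (hcard : Nat.card (D.posUnipotent F) = Fintype.card F ^ (D.nroots / 2))
    {J : Set ℕ} (hJ : ∃ i, i < D.rank ∧ i ∉ J) :
    IsPGroup p ↥(Cfsg.generalizedFittingSubgroup ↥(D.parabolicSubgroup F J)) := by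
  have hUp : IsPGroup p ↥(D.posUnipotent F) := by
    obtain ⟨n, _, hn⟩ := FiniteField.card F p
    apply IsPGroup.of_card (n := n * (D.nroots / 2))
    rw [hcard, hn, pow_mul]
  have hle : D.unipotentRadical F J ≤ D.parabolicSubgroup F J :=
    (UJ_le_pos b.hA J).trans (AddFact.pos_le_borel.trans (borel_le_par J))
  have hQn : ((D.unipotentRadical F J).subgroupOf (D.parabolicSubgroup F J)).Normal :=
    (Subgroup.normal_subgroupOf_iff_le_normalizer hle).2 (par_le_normalizer b pf hCF J)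
  have hQp : IsPGroup p ↥((D.unipotentRadical F J).subgroupOf (D.parabolicSubgroup F J)) :=
    isPGroup_of_forall_mem hUp _ (fun x hx => UJ_le_pos b.hA J hx)
  have hQle := Cfsg.Agent.Lib.Helper28.le_pCore hQn hQp
  have hCp : IsPGroup p ↥(Subgroup.centralizer
      (((D.unipotentRadical F J).subgroupOf (D.parabolicSubgroup F J) : Subgroup _) :
        Set ↥(D.parabolicSubgroup F J))) := by
    apply isPGroup_of_forall_mem hUp
    intro x hx
    apply CJ_le_pos b pf hCF hUC hS hJ
    refine Subgroup.mem_inf.2 ⟨x.2, ?_⟩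
    rw [Subgroup.mem_centralizer_iff]
    intro u hu
    have := (Subgroup.mem_centralizer_iff.1 hx) ⟨u, hle hu⟩ hu
    exact congrArg Subtype.val this
  have hchar : Cfsg.Agent.Lib.Helper37.CharP p ↥(D.parabolicSubgroup F J) := by
    intro x hx
    exact Cfsg.Agent.Lib.Helper28.le_pCore inferInstance hCp (Subgroup.centralizer_le hQle hx)
  rw [hchar.genFitting_eq]
  exact Cfsg.Agent.Lib.Helper28.pCore_isPGroup p

end Cfsg.Agent.Lib.Helper22
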