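import Cfsg.Agent.Lib.Helper18.Uni1
import Cfsg.Agent.Lib.Helper18.Uni2

/-! the number of `p`-elements of a group with a split (B,N)-pair of characteristic `p` -/

set_option autoImplicit false

namespace Cfsg.Agent.Lib.Helper22
open Cfsg.Agent.Lib.Helper8 Cfsg.Agent.Lib.Helper44 Cfsg

variable {G : Type*} [Group G]

/-- `p`-elements. -/
def IsPEl (p : ℕ) {Γ : Type*} [Group Γ] (g : Γ) : Prop := ∃ k : ℕ, orderOf g = p ^ k

theorem isPEl_conj (p : ℕ) {Γ : Type*} [Group Γ] (g x : Γ) : IsPEl p (x * g * x⁻¹) ↔ IsPEl p g := by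
  unfold IsPEl
  have : orderOf (x * g * x⁻¹) = orderOf g := by
    have := (MulAut.conj x).orderOf_eq g
    simpa using this
  rw [this]

theorem isPEl_coe (p : ℕ) {Γ : Type*} [Group Γ] {K : Subgroup Γ} (g : K) : IsPEl p (g : Γ) ↔ IsPEl p g := by
  unfold IsPEl
  rw [Subgroup.orderOf_coe]

/-- a `p`-element of a subgroup containing a Sylow `p`-subgroup `U` is conjugate into `U`. -/
theorem exists_conj_mem_sylow [Finite G] {p : ℕ} [Fact p.Prime] {U : Subgroup G}
    (hU : ∃ Q : Sylow p G, (Q : Subgroup G) = U) {M : Subgroup G} (hUM : U ≤ M) {g : G} (hg : g ∈ M)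
    (hp : IsPEl p g) : ∃ y ∈ M, y * g * y⁻¹ ∈ U := by
  obtain ⟨Q, rfl⟩ := hU
  let Q' : Sylow p M := Q.subtype hUM
  have hz : IsPGroup p (Subgroup.zpowers (⟨g, hg⟩ : M)) := by
    obtain ⟨k, hk⟩ := (isPEl_coe p (⟨g, hg⟩ : M)).1 hp
    apply IsPGroup.of_card (n := k)
    rw [Nat.card_zpowers, hk]
  obtain ⟨R, hR⟩ := hz.exists_le_sylow
  obtain ⟨y, hy⟩ := MulAction.exists_smul_eq M R Q'
  refine ⟨y, y.2, ?_⟩
  have h1 : (⟨g, hg⟩ : M) ∈ R := hR (Subgroup.mem_zpowers _)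
  have h2 : y * ⟨g, hg⟩ * y⁻¹ ∈ ((y • R : Sylow p M) : Subgroup M) := by
    rw [Sylow.coe_subgroup_smul]
    have h1' : (⟨g, hg⟩ : M) ∈ (R : Subgroup M) := h1
    exact Subgroup.mem_pointwise_smul_iff_inv_smul_mem.2 (by simpa [MulAut.smul_def, mul_assoc] using h1')
  rw [hy, Sylow.coe_subtype, Subgroup.mem_subgroupOf] at h2
  exact h2

theorem fixedPointCharacter_one' {Γ : Type*} [Group Γ] (K : Subgroup Γ) :
    fixedPointCharacter K 1 = (K.index : ℂ) := by
  unfold fixedPointCharacter Subgroup.index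
  congr 1
  exact Nat.card_congr (Equiv.subtypeUnivEquiv (fun x => by simp))

section main
variable [Finite G] (P : Cfsg.BNPair G) {T : Finset G} (hT : (↑T : Set G) = P.S) (p : ℕ) [Fact p.Prime]
    (U : Subgroup G) (hU : ∃ Q : Sylow p G, (Q : Subgroup G) = U) (hUB : U ≤ P.B)
    (hUn : ∀ b ∈ P.B, ∀ u ∈ U, b * u * b⁻¹ ∈ U)
    (V Hs : Finset G → Subgroup G) (n : Finset G → G)
    (hVU : ∀ J ⊆ T, V J ≤ U)
    (hVn : ∀ J ⊆ T, ∀ g ∈ P.parabolic (↑J : Set G), ∀ v ∈ V J, g * v * g⁻¹ ∈ V J)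
    (hn : ∀ J ⊆ T, n J ∈ Subgroup.closure (↑J : Set G) ⊔ (P.B ⊓ P.N))
    (hasc : ∀ J ⊆ T, ∀ s ∈ J, ∃ g ∈ DC P s, (n J)⁻¹ * g * n J ∈ P.B)
    (hH : ∀ J ⊆ T, ∀ b ∈ P.B, ((n J)⁻¹ * b * n J ∈ P.B ↔ b ∈ Hs J))
    (hUV : ∀ J ⊆ T, ∀ u ∈ U, u ∈ Hs J → u ∈ V J)

include hT hU hUB hUn hVU hVn hn hasc hH hUV in
open Classical in
theorem stBN_sub_val {J : Finset G} (hJT : J ⊆ T) (hJ : (↑J : Set G) ⊆ P.S)
    (g : ↥(P.parabolic (↑J : Set G))) (hg : IsPEl p g) :
    stBN (subBN P ↑J hJ) (J.subtype (· ∈ P.parabolic (↑J : Set G))) g =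
      if (g : G) ∈ V J then ((Hs J).relIndex P.B : ℂ) else 0 := by
  set P' := subBN P ↑J hJ with hP'
  set T' := J.subtype (· ∈ (P.parabolic (↑J : Set G))) with hT'd
  have hBP : P.B ≤ (P.parabolic (↑J : Set G)) := B_le_parabolic _
  have hT' : (↑T' : Set (P.parabolic (↑J : Set G))) = P'.S := by
    ext s
    simp only [hT'd, Finset.mem_coe, Finset.mem_subtype]
    rfl
  have hnPJ : n J ∈ (P.parabolic (↑J : Set G)) :=
    (sup_le (closure_le_parabolic _) (inf_le_left.trans hBP)) (hn J hJT)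
  let n₀ : P'.N := ⟨⟨n J, hnPJ⟩, Subgroup.mem_subgroupOf.2 (hn J hJT)⟩
  have hasc' : ∀ s : P'.S, (QuotientGroup.mk n₀ : Wy P') ∉ Qs P' s := by
    intro s
    have hsJ : ((s : (P.parabolic (↑J : Set G))) : G) ∈ J := s.2
    obtain ⟨g₁, hg₁, hgn⟩ := hasc J hJT _ hsJ
    obtain ⟨x, hx, y, hy, e⟩ := mem_DC.1 hg₁
    have hg₁P : g₁ ∈ (P.parabolic (↑J : Set G)) := by
      rw [e]
      exact mul_mem (mul_mem (hBP hx) (s : (P.parabolic (↑J : Set G))).2) (hBP hy)
    refine not_mem_Qs_of s n₀ (g := ⟨g₁, hg₁P⟩) ?_ ?_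
    · rw [C_sg]
      exact mem_DC.2 ⟨⟨x, hBP hx⟩, Subgroup.mem_subgroupOf.2 hx, ⟨y, hBP hy⟩, Subgroup.mem_subgroupOf.2 hy,
        Subtype.ext e⟩
    · exact Subgroup.mem_subgroupOf.2 hgn
  have hH' : ∀ b ∈ P'.B, (((n₀ : (P.parabolic (↑J : Set G))))⁻¹ * b * n₀ ∈ P'.B ↔ b ∈ (Hs J).subgroupOf (P.parabolic (↑J : Set G))) := by
    intro b hb
    exact hH J hJT b (Subgroup.mem_subgroupOf.1 hb)
  have key := stBN_restrict hT' n₀ hasc' ((Hs J).subgroupOf (P.parabolic (↑J : Set G))) hH'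
  obtain ⟨y, hy, hyU⟩ := exists_conj_mem_sylow hU (hUB.trans hBP) g.2 ((isPEl_coe p g).2 hg)
  have hcl : stBN P' T' ((⟨y, hy⟩ : (P.parabolic (↑J : Set G))) * g * (⟨y, hy⟩ : (P.parabolic (↑J : Set G)))⁻¹) = stBN P' T' g := by
    unfold stBN
    simp only [fixedPointCharacter_conj]
  rw [← hcl]
  set u : (P.parabolic (↑J : Set G)) := (⟨y, hy⟩ : (P.parabolic (↑J : Set G))) * g * (⟨y, hy⟩ : (P.parabolic (↑J : Set G)))⁻¹ with hu
  have huU : (u : G) ∈ U := hyU
  have huB : u ∈ P'.B := Subgroup.mem_subgroupOf.2 (hUB huU)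
  have hVg : (g : G) ∈ V J ↔ (u : G) ∈ V J := by
    constructor
    · intro h
      exact hVn J hJT y hy _ h
    · intro h
      have := hVn J hJT y⁻¹ (inv_mem hy) _ h
      have e : y⁻¹ * (u : G) * y⁻¹⁻¹ = g := by
        simp only [hu, Subgroup.coe_mul, Subgroup.coe_inv]
        group
      rwa [e] at this
  have key2 := key ⟨u, huB⟩
  simp only at key2
  rw [key2]
  have hfix : ∀ x : ↥P'.B ⧸ ((Hs J).subgroupOf (P.parabolic (↑J : Set G))).subgroupOf P'.B,
      ((⟨u, huB⟩ : P'.B) • x = x ↔ (u : G) ∈ V J) := by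
    intro x
    induction x using QuotientGroup.induction_on with | _ b =>
    have hbB : ((b : (P.parabolic (↑J : Set G))) : G) ∈ P.B := Subgroup.mem_subgroupOf.1 b.2
    have h1 : ((⟨u, huB⟩ : P'.B) • (b : ↥P'.B ⧸ ((Hs J).subgroupOf (P.parabolic (↑J : Set G))).subgroupOf P'.B) = b) ↔
        ((b : (P.parabolic (↑J : Set G))) : G)⁻¹ * u * b ∈ Hs J := by
      show (((⟨u, huB⟩ : P'.B) * b : P'.B) : ↥P'.B ⧸ ((Hs J).subgroupOf (P.parabolic (↑J : Set G))).subgroupOf P'.B) = b ↔ _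
      rw [eq_comm, QuotientGroup.eq, Subgroup.mem_subgroupOf, Subgroup.mem_subgroupOf]
      simp only [Subgroup.coe_mul, Subgroup.coe_inv, mul_assoc]
    rw [h1]
    set c : G := ((b : (P.parabolic (↑J : Set G))) : G)⁻¹ * u * b with hc
    have hcU : c ∈ U := by
      have := hUn _ (inv_mem hbB) _ huU
      simpa [hc] using this
    constructor
    · intro h
      have h2 := hVn J hJT _ (hBP hbB) _ (hUV J hJT c hcU h)
      have e : ((b : (P.parabolic (↑J : Set G))) : G) * c * ((b : (P.parabolic (↑J : Set G))) : G)⁻¹ = u := by rw [hc]; group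
      rwa [e] at h2
    · intro h
      have h2 : c ∈ V J := by
        have := hVn J hJT _ (inv_mem (hBP hbB)) _ h
        simpa [hc] using this
      apply (hH J hJT c (hUB hcU)).1
      have h3 := hVn J hJT _ (inv_mem hnPJ) _ h2
      rw [inv_inv] at h3
      exact hUB (hVU J hJT h3)
  unfold fixedPointCharacter
  by_cases hv : (u : G) ∈ V J
  · rw [if_pos (hVg.2 hv)]
    congr 1
    rw [← Subgroup.relIndex_subgroupOf hBP]
    unfold Subgroup.relIndex Subgroup.index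
    exact Nat.card_congr (Equiv.subtypeUnivEquiv (fun x => (hfix x).2 hv))
  · rw [if_neg (fun h => hv (hVg.1 h))]
    have : IsEmpty (MulAction.fixedBy (↥P'.B ⧸ ((Hs J).subgroupOf (P.parabolic (↑J : Set G))).subgroupOf P'.B) (⟨u, huB⟩ : P'.B)) :=
      ⟨fun x => hv ((hfix x.1).1 x.2)⟩
    rw [Nat.card_of_isEmpty]
    simp

/-- number of `p`-elements of the parabolic subgroup. -/
noncomputable def aP (I : Finset G) : ℕ := Nat.card {g : ↥(P.parabolic (↑I : Set G)) // IsPEl p g}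

include hT hU hUB hUn hVU hVn hn hasc hH hUV in
open Classical in
theorem sum_sub_eq (hcard : ∀ J ⊆ T, Nat.card (V J) * (Hs J).relIndex P.B = Nat.card U)
    {J : Finset G} (hJT : J ⊆ T) :
    ∑ I ∈ J.powerset, (-1 : ℂ) ^ I.card *
      (((P.parabolic (↑I : Set G)).relIndex (P.parabolic (↑J : Set G)) : ℂ) * (aP P p I : ℂ)) = (Nat.card U : ℂ) := by
  have hJ : (↑J : Set G) ⊆ P.S := by rw [← hT]; exact_mod_cast hJT
  have : Fintype ↥(P.parabolic (↑J : Set G)) := Fintype.ofFinite _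
  have hBP : P.B ≤ P.parabolic (↑J : Set G) := B_le_parabolic _
  -- first evaluation
  have e1 : ∑ g : ↥(P.parabolic (↑J : Set G)), (if IsPEl p g then
      stBN (subBN P ↑J hJ) (J.subtype (· ∈ P.parabolic (↑J : Set G))) g else 0) = (Nat.card U : ℂ) := by
    have h1 : ∀ g : ↥(P.parabolic (↑J : Set G)), (if IsPEl p g then
        stBN (subBN P ↑J hJ) (J.subtype (· ∈ P.parabolic (↑J : Set G))) g else 0) =
        if g ∈ (V J).subgroupOf (P.parabolic (↑J : Set G)) then ((Hs J).relIndex P.B : ℂ) else 0 := by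
      intro g
      by_cases hg : IsPEl p g
      · rw [if_pos hg, stBN_sub_val P hT p U hU hUB hUn V Hs n hVU hVn hn hasc hH hUV hJT hJ g hg]
        rfl
      · rw [if_neg hg, if_neg]
        intro hv
        apply hg
        rw [← isPEl_coe]
        obtain ⟨Q, hQ⟩ := hU
        have hgU : (g : G) ∈ (Q : Subgroup G) := hQ ▸ hVU J hJT (Subgroup.mem_subgroupOf.1 hv)
        obtain ⟨k, hk⟩ := Q.2 ⟨g, hgU⟩
        have h2 : (g : G) ^ p ^ k = 1 := by
          have := congrArg Subtype.val hk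
          simpa using this
        obtain ⟨m, _, hm⟩ := (Nat.dvd_prime_pow Fact.out).1 (orderOf_dvd_of_pow_eq_one h2)
        exact ⟨m, hm⟩
    rw [Finset.sum_congr rfl (fun g _ => h1 g), ← Finset.sum_filter, Finset.sum_const, nsmul_eq_mul,
      ← hcard J hJT]
    have h3 : (Finset.univ.filter fun g : ↥(P.parabolic (↑J : Set G)) =>
        g ∈ (V J).subgroupOf (P.parabolic (↑J : Set G))).card = Nat.card (V J) := by
      rw [← Nat.card_congr (Subgroup.subgroupOfEquivOfLe (((hVU J hJT).trans hUB).trans hBP)).toEquiv,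
        Nat.card_eq_fintype_card, Fintype.card_subtype]
    rw [h3]
    push_cast
    ring
  rw [← e1]
  simp only [stBN_subBN]
  have h4 : ∀ g : ↥(P.parabolic (↑J : Set G)), (if IsPEl p g then
      ∑ I ∈ J.powerset, (-1 : ℂ) ^ I.card *
        fixedPointCharacter ((P.parabolic (↑I : Set G)).subgroupOf (P.parabolic (↑J : Set G))) g else 0) =
      ∑ I ∈ J.powerset, (-1 : ℂ) ^ I.card * (if IsPEl p g then
        fixedPointCharacter ((P.parabolic (↑I : Set G)).subgroupOf (P.parabolic (↑J : Set G))) g else 0) := by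
    intro g
    by_cases hg : IsPEl p g
    · simp only [if_pos hg]
    · simp only [if_neg hg, mul_zero, Finset.sum_const_zero]
  rw [Finset.sum_congr rfl (fun g _ => h4 g), Finset.sum_comm]
  refine Finset.sum_congr rfl fun I hI => ?_
  rw [← Finset.mul_sum, sum_fixedPointCharacter _ (IsPEl p) (fun g x => isPEl_conj p g x)]
  congr 2
  have hIJ : P.parabolic (↑I : Set G) ≤ P.parabolic (↑J : Set G) :=
    parabolic_mono (by exact_mod_cast Finset.mem_powerset.1 hI)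
  unfold aP
  congr 1
  refine (Nat.card_congr ((Subgroup.subgroupOfEquivOfLe hIJ).toEquiv.subtypeEquiv ?_)).symm
  intro k
  rw [isPEl_coe]
  unfold IsPEl
  rw [← (Subgroup.subgroupOfEquivOfLe hIJ).orderOf_eq k]
  rfl

include hT hU hUB hUn hVU hVn hn hasc hH hUV in
open Classical in
/-- the number of `p`-elements is `|U|²`. -/
theorem card_pEl (hcard : ∀ J ⊆ T, Nat.card (V J) * (Hs J).relIndex P.B = Nat.card U)
    (hdeg : stBN P T 1 = (Nat.card U : ℂ)) : Nat.card {g : G // IsPEl p g} = Nat.card U ^ 2 := by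
  have h1 := alt_alt_sum T (fun I => ((P.parabolic (↑I : Set G)).index : ℂ) * (aP P p I : ℂ))
  have h2 : ∀ J ∈ T.powerset, (-1 : ℂ) ^ J.card * ∑ I ∈ J.powerset, (-1 : ℂ) ^ I.card *
      (((P.parabolic (↑I : Set G)).index : ℂ) * (aP P p I : ℂ)) =
      ((-1 : ℂ) ^ J.card * fixedPointCharacter (P.parabolic (↑J : Set G)) 1) * (Nat.card U : ℂ) := by
    intro J hJ
    have hJT := Finset.mem_powerset.1 hJ
    rw [← sum_sub_eq P hT p U hU hUB hUn V Hs n hVU hVn hn hasc hH hUV hcard hJT, fixedPointCharacter_one',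
      mul_assoc]
    congr 1
    rw [Finset.mul_sum]
    refine Finset.sum_congr rfl fun I hI => ?_
    have hIJ : P.parabolic (↑I : Set G) ≤ P.parabolic (↑J : Set G) :=
      parabolic_mono (by exact_mod_cast Finset.mem_powerset.1 hI)
    rw [← Subgroup.relIndex_mul_index hIJ]
    push_cast
    ring
  rw [Finset.sum_congr rfl h2, ← Finset.sum_mul] at h1
  have h3 : ∑ J ∈ T.powerset, (-1 : ℂ) ^ J.card * fixedPointCharacter (P.parabolic (↑J : Set G)) 1 = stBN P T 1 := rfl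
  rw [h3, hdeg] at h1
  have h4 : P.parabolic (↑T : Set G) = ⊤ := by rw [hT]; exact parabolic_S
  have h5 : aP P p T = Nat.card {g : G // IsPEl p g} := by
    unfold aP
    rw [h4]
    refine Nat.card_congr (Subgroup.topEquiv.toEquiv.subtypeEquiv ?_)
    intro k
    unfold IsPEl
    rw [← Subgroup.topEquiv.orderOf_eq k]
    rfl
  rw [h4, Subgroup.index_top, h5] at h1
  have h6 : ((Nat.card {g : G // IsPEl p g} : ℕ) : ℂ) = ((Nat.card U ^ 2 : ℕ) : ℂ) := by
    push_cast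
    rw [sq, h1]
    simp
  exact_mod_cast h6

end main

end Cfsg.Agent.Lib.Helper22
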