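import Cfsg.Agent.Lib.Helper22.Par7
import Cfsg.Agent.Lib.Helper22.Bruhat
import Cfsg.Agent.Lib.Helper45.ChevOrder2

/-! `B ∩ B^{w_J} = U_J H` -/

set_option autoImplicit false

namespace Cfsg.Agent.Lib.Helper22
open Cfsg.Lie Matrix Cfsg.Agent.Lib.Helper23 Cfsg.Agent.Lib.Helper45

variable {D : ChevalleyDatum} {F : Type*} [Field F] (b : Bundle D F) (hC : UComm D F) {J : Set ℕ} {L : List ℕ}
  (hL : ∀ i ∈ L, i ∈ J ∧ i < D.rank)
  (hneg : ∀ r, D.IsPosRoot r → D.InRootSub J r → D.IsNegRoot (wact D L r))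
  (hnorm : D.parabolicSubgroup F J ≤ Subgroup.normalizer (D.unipotentRadical F J : Set (GL D.Idx F)))

include hL in
theorem nword_mem_par : b.hA.nword L ∈ D.parabolicSubgroup F J := by
  apply Subgroup.list_prod_mem
  intro x hx
  obtain ⟨i, hi, rfl⟩ := List.mem_map.1 hx
  exact nn_mem_par b.hA (hL i hi).2 (hL i hi).1

include hC hL hneg hnorm in
theorem dec_pos_of_conj_mem {u : GL D.Idx F} (hu : u ∈ D.posUnipotent F)
    (h : b.hA.nword L * u * (b.hA.nword L)⁻¹ ∈ D.borelSubgroup F) : u ∈ D.unipotentRadical F J := by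
  classical
  have hA := b.hA
  have hLr : ∀ i ∈ L, i < D.rank := fun i hi => (hL i hi).2
  set Lp := D.posRoots.filter (fun r => ! decide (D.InRootSub J r)) with hLp
  set Lm := D.posRoots.filter (fun r => ! ! decide (D.InRootSub J r)) with hLm
  have hperm : (Lp ++ Lm).Perm D.posRoots := List.filter_append_perm _ _
  obtain ⟨t, et⟩ := exists_factor hA hC (L := Lp ++ Lm) (hperm.nodup_iff.2 (posRoots_nodup D))
    (fun a => by rw [hperm.mem_iff, mem_posRoots]) hu
  rw [wL_append, hA.W_append] at et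
  have h1 : hA.W (wL Lp t) ∈ D.unipotentRadical F J := by
    apply W_mem_UJ hA
    intro p hp
    obtain ⟨a, ha, rfl⟩ := List.mem_map.1 hp
    have ha' := List.mem_filter.1 ha
    exact ⟨(mem_posRoots D a).1 ha'.1, by simpa using ha'.2⟩
  have h2 : hA.nword L * hA.W (wL Lm t) * (hA.nword L)⁻¹ ∈ D.negUnipotent F := by
    rw [conj_W]
    apply Subgroup.list_prod_mem
    intro z hz
    obtain ⟨p, hp, rfl⟩ := List.mem_map.1 hz
    obtain ⟨a, ha, rfl⟩ := List.mem_map.1 hp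
    have ha' := List.mem_filter.1 ha
    have hapos : D.IsPosRoot a := (mem_posRoots D a).1 ha'.1
    obtain ⟨ε, _, hc, _⟩ := hA.nword_conj b.hR b.hN hLr hapos.1
    rw [hc]
    exact hA.X_mem_neg (hneg a hapos (by simpa using ha'.2)) _
  have h3 : hA.nword L * hA.W (wL Lp t) * (hA.nword L)⁻¹ ∈ D.borelSubgroup F :=
    AddFact.pos_le_borel (UJ_le_pos hA J (conj_mem_of_normalizer (hnorm (nword_mem_par b hL)) h1))
  have h4 : hA.nword L * hA.W (wL Lm t) * (hA.nword L)⁻¹ ∈ D.borelSubgroup F := by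
    have e : hA.nword L * hA.W (wL Lm t) * (hA.nword L)⁻¹ =
        (hA.nword L * hA.W (wL Lp t) * (hA.nword L)⁻¹)⁻¹ * (hA.nword L * u * (hA.nword L)⁻¹) := by
      rw [et]; group
    rw [e]
    exact mul_mem (inv_mem h3) h
  have h5 : hA.nword L * hA.W (wL Lm t) * (hA.nword L)⁻¹ = 1 := by
    have : hA.nword L * hA.W (wL Lm t) * (hA.nword L)⁻¹ ∈ D.borelSubgroup F ⊓ D.negUnipotent F := ⟨h4, h2⟩
    rwa [b.hTri.BV, Subgroup.mem_bot] at this
  have h6 : hA.W (wL Lm t) = 1 := by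
    have : hA.W (wL Lm t) = (hA.nword L)⁻¹ * (hA.nword L * hA.W (wL Lm t) * (hA.nword L)⁻¹) * hA.nword L := by
      group
    rw [this, h5]; group
  rw [et, h6, mul_one]
  exact h1

include hC hL hneg hnorm in
theorem dec_of_conj_mem {x : GL D.Idx F} (hx : x ∈ D.borelSubgroup F)
    (h : b.hA.nword L * x * (b.hA.nword L)⁻¹ ∈ D.borelSubgroup F) :
    ∃ u ∈ D.unipotentRadical F J, ∃ k ∈ D.diagonalSubgroup F, x = u * k := by
  have hLr : ∀ i ∈ L, i < D.rank := fun i hi => (hL i hi).2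
  obtain ⟨u, hu, k, hk, rfl⟩ := (b.hA.mem_borel_iff b.hT).1 hx
  refine ⟨u, dec_pos_of_conj_mem b hC hL hneg hnorm hu ?_, k, hk, rfl⟩
  have e : b.hA.nword L * u * (b.hA.nword L)⁻¹ =
      (b.hA.nword L * (u * k) * (b.hA.nword L)⁻¹) * (b.hA.nword L * k * (b.hA.nword L)⁻¹)⁻¹ := by group
  rw [e]
  exact mul_mem h (inv_mem (AddFact.diag_le_borel (b.hA.nword_conj_diag b.hR b.hN hLr hk)))

include hL hnorm in
theorem conj_mem_of_sup {x : GL D.Idx F} (hx : x ∈ D.unipotentRadical F J ⊔ D.diagonalSubgroup F) :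
    b.hA.nword L * x * (b.hA.nword L)⁻¹ ∈ D.borelSubgroup F := by
  have hLr : ∀ i ∈ L, i < D.rank := fun i hi => (hL i hi).2
  have key : D.unipotentRadical F J ⊔ D.diagonalSubgroup F ≤
      (D.borelSubgroup F).comap (MulAut.conj (b.hA.nword L)).toMonoidHom := by
    refine sup_le ?_ ?_
    · intro u hu
      exact AddFact.pos_le_borel (UJ_le_pos b.hA J (conj_mem_of_normalizer (hnorm (nword_mem_par b hL)) hu))
    · intro k hk
      exact AddFact.diag_le_borel (b.hA.nword_conj_diag b.hR b.hN hLr hk)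
  exact key hx

include b in
theorem sup_le_borel : D.unipotentRadical F J ⊔ D.diagonalSubgroup F ≤ D.borelSubgroup F :=
  sup_le ((UJ_le_pos b.hA J).trans AddFact.pos_le_borel) AddFact.diag_le_borel

include b hC hL hneg hnorm in
theorem card_sup : Nat.card ↥(D.unipotentRadical F J ⊔ D.diagonalSubgroup F) =
    Nat.card (D.unipotentRadical F J) * Nat.card (D.diagonalSubgroup F) := by
  rw [← Nat.card_prod]
  symm
  let Ψ : D.unipotentRadical F J × D.diagonalSubgroup F → ↥(D.unipotentRadical F J ⊔ D.diagonalSubgroup F) :=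
    fun q => ⟨q.1 * q.2, mul_mem (Subgroup.mem_sup_left q.1.2) (Subgroup.mem_sup_right q.2.2)⟩
  apply Nat.card_congr (Equiv.ofBijective Ψ ⟨?_, ?_⟩)
  · rintro ⟨u, k⟩ ⟨u', k'⟩ h
    have h1 : (u : GL D.Idx F) * k = u' * k' := congrArg Subtype.val h
    have h2 : (u' : GL D.Idx F)⁻¹ * u = k' * (k : GL D.Idx F)⁻¹ := by
      rw [eq_mul_inv_iff_mul_eq, mul_assoc, h1]; group
    have h3a : (u' : GL D.Idx F)⁻¹ * u ∈ D.posUnipotent F :=
      mul_mem (inv_mem (UJ_le_pos b.hA J u'.2)) (UJ_le_pos b.hA J u.2)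
    have h3b : (u' : GL D.Idx F)⁻¹ * u ∈ D.diagonalSubgroup F := by
      rw [h2]; exact mul_mem k'.2 (inv_mem k.2)
    have h3 : (u' : GL D.Idx F)⁻¹ * u ∈ D.posUnipotent F ⊓ D.diagonalSubgroup F := ⟨h3a, h3b⟩
    rw [b.hTri.UH, Subgroup.mem_bot] at h3
    have h4 : (u : GL D.Idx F) = u' := (inv_mul_eq_one.1 h3).symm
    have h5 : (k : GL D.Idx F) = k' := by
      rw [h4] at h1; exact mul_left_cancel h1
    exact Prod.ext (Subtype.ext h4) (Subtype.ext h5)
  · rintro ⟨x, hx⟩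
    obtain ⟨u, hu, k, hk, rfl⟩ := dec_of_conj_mem b hC hL hneg hnorm (sup_le_borel b hx)
      (conj_mem_of_sup b hL hnorm hx)
    exact ⟨(⟨u, hu⟩, ⟨k, hk⟩), rfl⟩

include b hC hL hneg hnorm in
theorem card_UJ_mul_relIndex [Finite F] : Nat.card (D.unipotentRadical F J) *
    (D.unipotentRadical F J ⊔ D.diagonalSubgroup F).relIndex (D.borelSubgroup F) = Nat.card (D.posUnipotent F) := by
  have h1 := ((D.unipotentRadical F J ⊔ D.diagonalSubgroup F).subgroupOf (D.borelSubgroup F)).card_mul_index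
  rw [Nat.card_congr (Subgroup.subgroupOfEquivOfLe (sup_le_borel b (J := J))).toEquiv,
    card_sup b hC hL hneg hnorm, card_borel b.hA b.hT b.hTri] at h1
  change _ * (D.unipotentRadical F J ⊔ D.diagonalSubgroup F).relIndex (D.borelSubgroup F) = _ at h1
  have hpos : 0 < Nat.card (D.diagonalSubgroup F) := Nat.card_pos
  apply Nat.eq_of_mul_eq_mul_right hpos
  rw [← h1]; ring

end Cfsg.Agent.Lib.Helper22
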