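import Cfsg.Agent.Lib.Helper18.Uni3
import Cfsg.Agent.Lib.Helper22.Uni4
import Cfsg.Agent.Lib.Helper22.Uni5
import Cfsg.Agent.Lib.Helper44.StOrder
import Cfsg.Agent.S1048

/-! Steinberg's count of the unipotent elements of a Chevalley group -/

set_option autoImplicit false

namespace Cfsg.Agent.Lib.Helper22
open Cfsg.Lie Matrix Cfsg.Agent.Lib.Helper23 Cfsg.Agent.Lib.Helper8 Cfsg.Agent.Lib.Helper45
  Cfsg.Agent.Lib.Helper44 Cfsg

variable {D : ChevalleyDatum} {F : Type*} [Field F]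

/-- a negative fundamental root element in `B n_j B`. -/
theorem exists_neg_mem_DC (b : Bundle D F) {P : Cfsg.BNPair ↥(D.group F)}
    (hPB : P.B = (D.borelSubgroup F).subgroupOf (D.group F))
    (hPS : P.S = {n : ↥(D.group F) | ∃ i < D.rank,
      ((n : GL D.Idx F) : Matrix D.Idx D.Idx F) = D.nMat F (D.simple i) 1}) {i : ℕ} (hi : i < D.rank) :
    ∃ g : ↥(D.group F), g ∈ DC P (nnG b.hA i) ∧ ∃ ε : F, (g : GL D.Idx F) = b.hA.X (D.neg (D.simple i)) ε := by
  have hA := b.hA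
  have hR := b.hR
  have hsS : nnG hA i ∈ P.S := nnG_mem_S hA hPS hi
  let s : P.S := ⟨nnG hA i, hsS⟩
  obtain ⟨ε, hε, hconj⟩ := hA.nn_inv_conj hR b.hN hi (hR.simple_lt hi)
  have hX : hA.X (D.simple i) 1 ∈ D.group F :=
    hA.borel_le_group (AddFact.pos_le_borel (hA.X_mem_pos (hR.simple_pos hi) 1))
  set x : ↥(D.group F) := ⟨hA.X (D.simple i) 1, hX⟩ with hx
  set g : ↥(D.group F) := (s : ↥(D.group F))⁻¹ * (x * s) with hg
  have hgc : (g : GL D.Idx F) = hA.X (D.neg (D.simple i)) (ε * 1) := by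
    rw [← RootFacts.refl_simple, ← hconj 1, hg]
    simp only [Subgroup.coe_mul, Subgroup.coe_inv, hx]
    rw [mul_assoc]; rfl
  have hgV : (g : GL D.Idx F) ∈ D.negUnipotent F := by
    rw [hgc]; exact hA.X_mem_neg (hR.neg_of_pos (hR.simple_pos hi)) _
  have hxB : x ∈ P.B := (mem_PB hPB).2 (AddFact.pos_le_borel (hA.X_mem_pos (hR.simple_pos hi) 1))
  have hgC : g ∈ C P (sg P s) := by
    have h1 : (s : ↥(D.group F))⁻¹ ∈ C P (sg P s) := S_inv_mem_DC s.2
    have h2 : x * s ∈ C P (sg P s) := DC_mul_left hxB (DC_self _)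
    rcases C_T3 h1 h2 with h3 | h3
    · exfalso
      rw [sg_mul_self, mem_C_one, mem_PB hPB] at h3
      have h4 : (g : GL D.Idx F) ∈ D.borelSubgroup F ⊓ D.negUnipotent F := ⟨h3, hgV⟩
      rw [b.hTri.BV, Subgroup.mem_bot, hgc] at h4
      have h5 : ε * 1 = 0 :=
        b.hTri.inj _ (hR.neg_lt (hR.simple_lt hi)) _ (by rw [← hA.coe_X, h4]; rfl)
      rcases hε with rfl | rfl <;> simp at h5
    · exact h3
  exact ⟨g, hgC, _, hgc⟩

theorem card_subgroupOf {G : Type*} [Group G] {K M : Subgroup G} (h : K ≤ M) :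
    Nat.card (K.subgroupOf M) = Nat.card K :=
  Nat.card_congr (Subgroup.subgroupOfEquivOfLe h).toEquiv

/-- Steinberg: the number of `p`-elements is `q ^ (2 N)`. -/
theorem card_unip [Fintype F] (p : ℕ) [Fact p.Prime] [CharP F p]
    (hD : D ∈ [chevG2, chevB2, chevD4, chevF4, chevE6, chevE7, chevE8]) :
    Nat.card {g : ↥(D.group F) // ∃ k : ℕ, orderOf g = p ^ k} = Fintype.card F ^ (2 * (D.nroots / 2)) := by
  classical
  have b := bundle_of_mem F hD
  have hC := uComm_of_mem F hD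
  have : Finite ↥(D.group F) := inferInstance
  obtain ⟨P, hPB, hPN, hPS⟩ := Cfsg.Agent.S1042.result (F := F) D hD
  obtain ⟨n, M, hM⟩ := exists_coxFacts hD
  obtain ⟨f, hf, hinv, -, -, hord, -⟩ :=
    chev_weyl b.hA b.hR b.hN b.hT b.hTri b.hC hPB hPN hPS hM
  have hinj : Set.InjOn (nnG b.hA) (Finset.range D.rank : Set ℕ) := by
    intro i hi j hj hij
    by_contra hne
    have hi' : i < n := hM.rank ▸ Finset.mem_range.1 (Finset.mem_coe.1 hi)
    have hj' : j < n := hM.rank ▸ Finset.mem_range.1 (Finset.mem_coe.1 hj)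
    have h1 : f ⟨i, hi'⟩ = f ⟨j, hj'⟩ := by
      rw [hf, hf]
      congr 1
      exact Subtype.ext hij
    have h2 := hord ⟨i, hi'⟩ ⟨j, hj'⟩
    rw [h1, hinv, orderOf_one] at h2
    exact M.off_diagonal ⟨i, hi'⟩ ⟨j, hj'⟩ (fun h => hne (congrArg Fin.val h)) h2.symm
  have hT := coe_genT b.hA hPS
  have hSt := steinberg_eq b.hA hPB hinj
  let J0 : Finset ↥(D.group F) → Finset ℕ := fun J => (Finset.range D.rank).filter fun i => nnG b.hA i ∈ J
  have hJ0 : ∀ J ⊆ genT b.hA, (J0 J).image (nnG b.hA) = J := by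
    intro J hJ
    ext g
    rw [Finset.mem_image]
    constructor
    · rintro ⟨i, hi, rfl⟩; exact (Finset.mem_filter.1 hi).2
    · intro hg
      obtain ⟨i, hi, rfl⟩ := Finset.mem_image.1 (hJ hg)
      exact ⟨i, Finset.mem_filter.2 ⟨hi, hg⟩, rfl⟩
  have hpar : ∀ J ⊆ genT b.hA, P.parabolic (↑J : Set ↥(D.group F)) =
      (D.parabolicSubgroup F (↑(J0 J) : Set ℕ)).subgroupOf (D.group F) := by
    intro J hJ
    have h1 := parabolicIn_eq b.hA hPB (J := J0 J) (Finset.filter_subset _ _)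
    rw [hJ0 J hJ] at h1
    exact h1.symm
  choose L hL hneg using fun J : Finset ↥(D.group F) => exists_longJ hD (↑(J0 J) : Set ℕ)
  have hnorm : ∀ J : Finset ↥(D.group F), D.parabolicSubgroup F (↑(J0 J) : Set ℕ) ≤
      Subgroup.normalizer (D.unipotentRadical F (↑(J0 J) : Set ℕ) : Set (GL D.Idx F)) :=
    fun J => (Cfsg.Agent.S1048.result D hD _).1
  have hLr : ∀ J, ∀ i ∈ L J, i < D.rank := fun J i hi => (hL J i hi).2
  have hcoe : ∀ (J : Finset ↥(D.group F)) (x : ↥(D.group F)),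
      ((((nwG b.hA (L J))⁻¹)⁻¹ * x * (nwG b.hA (L J))⁻¹ : ↥(D.group F)) : GL D.Idx F) =
        b.hA.nword (L J) * x * (b.hA.nword (L J))⁻¹ := by
    intro J x
    rw [inv_inv]
    simp only [Subgroup.coe_mul, Subgroup.coe_inv, coe_nwG]
  have hUcard : Nat.card ((D.posUnipotent F).subgroupOf (D.group F)) = Fintype.card F ^ (D.nroots / 2) := by
    rw [card_subgroupOf b.hA.pos_le_group, Cfsg.Agent.S1027.result D hD]
  have main := card_pEl P hT p ((D.posUnipotent F).subgroupOf (D.group F)) (pos_sylow F p hD) ?hUB ?hUn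
     (fun J => (D.unipotentRadical F (↑(J0 J) : Set ℕ)).subgroupOf (D.group F))
     (fun J => (D.unipotentRadical F (↑(J0 J) : Set ℕ) ⊔ D.diagonalSubgroup F).subgroupOf (D.group F))
     (fun J => (nwG b.hA (L J))⁻¹) ?hVU ?hVn ?hn ?hasc ?hH ?hUV ?hcard ?hdeg
  · rw [hUcard, ← pow_mul, mul_comm] at main
    exact main
  case hUB =>
    intro x hx
    exact (mem_PB hPB).2 (AddFact.pos_le_borel (Subgroup.mem_subgroupOf.1 hx))
  case hUn =>
    intro x hx u hu
    have h1 : D.borelSubgroup F ≤ Subgroup.normalizer (D.posUnipotent F : Set (GL D.Idx F)) := by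
      unfold ChevalleyDatum.borelSubgroup
      exact sup_le Subgroup.le_normalizer (b.hA.diag_le_normalizer_pos b.hT)
    exact Subgroup.mem_subgroupOf.2 (conj_mem_of_normalizer (h1 ((mem_PB hPB).1 hx)) (Subgroup.mem_subgroupOf.1 hu))
  case hVU =>
    intro J _ x hx
    exact Subgroup.mem_subgroupOf.2 (UJ_le_pos b.hA _ (Subgroup.mem_subgroupOf.1 hx))
  case hVn =>
    intro J hJ g hg v hv
    rw [hpar J hJ] at hg
    exact Subgroup.mem_subgroupOf.2
      (conj_mem_of_normalizer (hnorm J (Subgroup.mem_subgroupOf.1 hg)) (Subgroup.mem_subgroupOf.1 hv))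
  case hn =>
    intro J _
    apply Subgroup.mem_sup_left
    apply inv_mem
    apply Subgroup.list_prod_mem
    intro x hx
    obtain ⟨i, hi, rfl⟩ := List.mem_map.1 hx
    apply Subgroup.subset_closure
    have h1 : i ∈ J0 J := (hL J i hi).1
    exact Finset.mem_coe.2 (Finset.mem_filter.1 h1).2
  case hasc =>
    intro J hJ s hs
    obtain ⟨i, hi, rfl⟩ := Finset.mem_image.1 (hJ hs)
    have hi' := Finset.mem_range.1 hi
    obtain ⟨g, hg, ε, hgε⟩ := exists_neg_mem_DC b hPB hPS hi'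
    refine ⟨g, hg, ?_⟩
    rw [mem_PB hPB, hcoe, hgε]
    obtain ⟨ε', _, _, h2⟩ := b.hA.nword_conj b.hR b.hN (hLr J) (b.hR.simple_lt hi')
    rw [h2]
    have hiJ : i ∈ (↑(J0 J) : Set ℕ) := Finset.mem_coe.2 (Finset.mem_filter.2 ⟨hi, hs⟩)
    obtain ⟨co, pf⟩ := exists_parFacts hD
    have h3 := hneg J _ (b.hR.simple_pos hi') (pf.inRootSub_simple b.hR hi' hiJ)
    exact AddFact.pos_le_borel (b.hA.X_mem_pos (b.hR.pos_of_neg h3) _)
  case hH =>
    intro J _ x hx
    rw [mem_PB hPB, hcoe, Subgroup.mem_subgroupOf]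
    constructor
    · intro h
      obtain ⟨u, hu, k, hk, e⟩ := dec_of_conj_mem b hC (hL J) (hneg J) (hnorm J) ((mem_PB hPB).1 hx) h
      rw [e]
      exact mul_mem (Subgroup.mem_sup_left hu) (Subgroup.mem_sup_right hk)
    · intro h
      exact conj_mem_of_sup b (hL J) (hnorm J) h
  case hUV =>
    intro J _ u hu h
    exact Subgroup.mem_subgroupOf.2 (dec_pos_of_conj_mem b hC (hL J) (hneg J) (hnorm J)
      (Subgroup.mem_subgroupOf.1 hu) (conj_mem_of_sup b (hL J) (hnorm J) (Subgroup.mem_subgroupOf.1 h)))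
  case hcard =>
    intro J _
    rw [hPB, Subgroup.relIndex_subgroupOf b.hA.borel_le_group,
      card_subgroupOf ((UJ_le_pos b.hA _).trans b.hA.pos_le_group), card_subgroupOf b.hA.pos_le_group]
    exact card_UJ_mul_relIndex b hC (hL J) (hneg J) (hnorm J)
  case hdeg =>
    rw [← hSt, steinberg_degree F hD, hUcard]

end Cfsg.Agent.Lib.Helper22
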