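import Cfsg.Agent.Lib.Helper45.StW4

/-! LADDER W2 (S2400, case B2(3)): rung CSL -/

set_option autoImplicit false

namespace Cfsg.Agent.Lib.Helper45.StW

open Cfsg.Lie Matrix Cfsg.Agent.Lib.Helper22 Cfsg.Agent.Lib.Helper23 Cfsg.Agent.Lib.Helper45
  Cfsg.Agent.Lib.Helper23.StP Cfsg.Agent.Lib.Helper45.StV

variable {K : Type*} [Field K] {hA : AddFact chevB2 K} {E : Type*} [Group E]

set_option synthInstance.maxHeartbeats 2000000 in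
set_option synthInstance.maxSize 4096 in
theorem sl_tab : ∀ a ∈ S2, ∀ b ∈ L2, a < chevB2.nroots ∧ b < chevB2.nroots ∧ a ≠ b ∧ a ≠ chevB2.neg b ∧
   ((chevB2.commTerms a b = [] ∧ chevB2.commTerms b a = []) ∨
    ∃ p1 ∈ S2, ∃ r1 ∈ L2, ∃ N ∈ ([2, -2] : List ℤ),
      (∀ c ∈ chevB2.commTerms b a, c.1 = p1 ∨ c.1 = r1) ∧ (∃ c ∈ chevB2.commTerms a b, c.1 = p1) ∧
      (∃ c ∈ chevB2.commTerms a b, c.1 = r1) ∧
      chevB2.commTerms a p1 = [(r1, N, 1, 1)] ∧ chevB2.commTerms r1 a = [] ∧ r1 < chevB2.nroots ∧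
      a ≠ r1 ∧ a ≠ chevB2.neg r1) := by
  decide +kernel

omit [Field K] in
theorem Cl_mono' {Γ : Type*} [Group Γ] (X : ℕ → K → Γ) {L L' : List ℕ} (h : ∀ c ∈ L, c ∈ L') :
    Cl X L ≤ Cl X L' := by
  apply Subgroup.closure_mono
  rintro g ⟨c, hc, t, rfl⟩
  exact ⟨c, h c hc, t, rfl⟩

theorem sl_core (Z : CZ chevB2 K hA E) (hS : HS hA) (hH : HB Z) {a b p1 r1 : ℕ} {N : ℤ}
    (ha : a ∈ S2) (hb : b ∈ L2) (hp1 : p1 ∈ S2) (hr1 : r1 ∈ L2)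
    (ha' : a < chevB2.nroots) (hb' : b < chevB2.nroots) (h1 : a ≠ b) (h2 : a ≠ chevB2.neg b)
    (hba : ∀ c ∈ chevB2.commTerms b a, c.1 = p1 ∨ c.1 = r1)
    (hap : chevB2.commTerms a p1 = [(r1, N, 1, 1)])
    (hra : chevB2.commTerms r1 a = []) (hr1' : r1 < chevB2.nroots) (h3 : a ≠ r1) (h4 : a ≠ chevB2.neg r1)
    (L : List ℕ) (hbL : b ∈ L) (hp1L : p1 ∈ L) (hr1L : r1 ∈ L) (t u : K) :
    Z.Z a t * Z.Z b u * (Z.Z a t)⁻¹ ∈ Cl Z.Z L := by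
  obtain ⟨h, hh, w, hw, ea, eb⟩ := hS b hb a ha
  obtain ⟨e, rfl⟩ := Z.lift h (hA.diag_le_group hh)
  -- `Z a` normalises `M`
  have hnorm : ∀ x : K, ∀ g ∈ Cl Z.Z [p1, r1], Z.Z a x * g * (Z.Z a x)⁻¹ ∈ Cl Z.Z [p1, r1] := by
    intro x g hg
    apply conj_mem_Cl Z.Z _ hg
    intro b' hb' y
    simp only [List.mem_cons, List.not_mem_nil, or_false] at hb'
    rcases hb' with rfl | rfl
    · have := hH a ha b' hp1 r1 N hap (-x) y
      rw [Z.Z_neg memB2, inv_inv, neg_neg] at this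
      have e1 : Z.Z a x * Z.Z b' y * (Z.Z a x)⁻¹ = Z.Z b' y * Z.Z r1 ((N : K) * x * y) := by
        rw [← this]; group
      rw [e1]
      exact mul_mem (X_mem_Cl _ (by simp) _) (X_mem_Cl _ (by simp) _)
    · have := Z.comm_of_sep memB2 (hS b' hr1 a ha) hr1' ha' h3 h4 hra y x
      rw [← this, mul_inv_cancel_right]
      exact X_mem_Cl _ (by simp) _
  set t' : K := -t with ht'
  set s : K := (w - 1)⁻¹ * t' with hs
  set W : E := WW Z.Z (chevB2.commWord K b a (-u) s) with hW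
  have hWM : W ∈ Cl Z.Z [p1, r1] := by
    apply WW_mem_Cl
    intro p hp
    obtain ⟨c, hc, e'⟩ := StSys.mem_commWord hp
    rw [e']
    rcases hba c hc with h | h <;> simp [h]
  have key := Z.conj_eq_comm memB2 hb' ha' h1 h2 hh hw ea eb u t'
  rw [← hs, ← hW] at key
  have e2 := Z.conj_diag _ hh _ ha' _ eb s
  have hws : w * s = t' + s := by
    rw [hs]; field_simp; ring
  set m0 : E := e * W * e⁻¹ * W⁻¹ with hm0
  have hm0M : m0 ∈ Cl Z.Z [p1, r1] := mul_mem (Z.diag_conj_mem memB2 hh hWM) (inv_mem hWM)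
  have key2 : Z.Z b u * Z.Z a t' * (Z.Z b u)⁻¹ = Z.Z a t' * (Z.Z a s * m0 * (Z.Z a s)⁻¹) := by
    rw [key]
    have e3 : e * (Z.Z a s * W) * e⁻¹ * (Z.Z a s * W)⁻¹ = (e * Z.Z a s * e⁻¹) * (e * W * e⁻¹ * W⁻¹) * (Z.Z a s)⁻¹ := by
      group
    rw [e3, e2, hws, Z.Z_add, ← hm0]
    group
  have hm1 := hnorm s m0 hm0M
  set m1 : E := Z.Z a s * m0 * (Z.Z a s)⁻¹ with hm1d
  have key3 : (Z.Z a t')⁻¹ * Z.Z b u * Z.Z a t' = m1 * Z.Z b u := by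
    have : Z.Z b u * Z.Z a t' = Z.Z a t' * m1 * Z.Z b u := by
      rw [← key2]; group
    rw [mul_assoc, this]; group
  rw [ht', Z.Z_neg memB2, inv_inv] at key3
  rw [key3]
  refine mul_mem (Cl_mono' Z.Z ?_ hm1) (X_mem_Cl _ hbL _)
  intro c hc
  simp only [List.mem_cons, List.not_mem_nil, or_false] at hc
  rcases hc with rfl | rfl
  · exact hp1L
  · exact hr1L

section partZ
variable (Z : CZ chevB2 K hA E) (hS : HS hA) (hH : HB Z) (h20 : (2 : K) ≠ 0)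
include hS hH h20

/-- [CSL] -/
theorem b3_sl {a b : ℕ} (ha : a ∈ S2) (hb : b ∈ L2) (L : List ℕ) (hbL : b ∈ L)
    (hL : ∀ c ∈ chevB2.commTerms a b, c.1 ∈ L) (t u : K) :
    Z.Z a t * Z.Z b u * (Z.Z a t)⁻¹ ∈ Cl Z.Z L := by
  obtain ⟨ha', hb', h1, h2, hcase⟩ := sl_tab a ha b hb
  rcases hcase with ⟨-, h0⟩ | ⟨p1, hp1, r1, hr1, N, -, hba, ⟨c1, hc1, e1⟩, ⟨c2, hc2, e2⟩, hap, hra, hr1', h3, h4⟩
  · have := Z.comm_of_sep memB2 (hS b hb a ha) hb' ha' h1 h2 h0 u t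
    rw [← this, mul_inv_cancel_right]
    exact X_mem_Cl _ hbL _
  · exact sl_core Z hS hH ha hb hp1 hr1 ha' hb' h1 h2 hba hap hra hr1' h3 h4 L hbL (e1 ▸ hL c1 hc1)
      (e2 ▸ hL c2 hc2) t u

end partZ

end Cfsg.Agent.Lib.Helper45.StW
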