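import Cfsg.Agent.Lib.Helper45.StW4
import Cfsg.Agent.Lib.Helper22.W2CSL
import Cfsg.Agent.Lib.Helper2.W2CLL

/-! LADDER W2 (S2400, case B2(3)): rung CM3 -/

set_option autoImplicit false

namespace Cfsg.Agent.Lib.Helper45.StW

open Cfsg.Lie Matrix Cfsg.Agent.Lib.Helper22 Cfsg.Agent.Lib.Helper23 Cfsg.Agent.Lib.Helper45
  Cfsg.Agent.Lib.Helper23.StP Cfsg.Agent.Lib.Helper45.StV

variable {K : Type*} [Field K] {hA : AddFact chevB2 K} {E : Type*} [Group E]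

theorem cm3_mem : ∀ r < chevB2.nroots, r ∈ S2 ∨ r ∈ L2 := by
  decide +kernel

theorem cm3_ss : ∀ a ∈ S2, ∀ b ∈ S2, b ≠ a → b ≠ chevB2.neg a →
    ∃ r ∈ L2, ∃ N ∈ ([2, -2] : List ℤ), chevB2.commTerms a b = [(r, N, 1, 1)] := by
  decide +kernel

section partZ
variable (Z : CZ chevB2 K hA E) (hS : HS hA) (hH : HB Z) (h20 : (2 : K) ≠ 0)
include hS hH h20

/-- [CM3] -/
theorem b3_cm : Z.CM := by
  intro a ha' b hb' h1 h2 L hbL hL t u
  rcases cm3_mem a ha' with ha | ha <;> rcases cm3_mem b hb' with hb | hb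
  · obtain ⟨r, -, N, -, hT⟩ := cm3_ss a ha b hb h1 h2
    have := hH a ha b hb r N hT (-t) u
    rw [Z.Z_neg memB2, inv_inv, neg_neg] at this
    have e1 : Z.Z a t * Z.Z b u * (Z.Z a t)⁻¹ = Z.Z b u * Z.Z r ((N : K) * t * u) := by
      rw [← this]; group
    rw [e1]
    exact mul_mem (X_mem_Cl _ hbL _) (X_mem_Cl _ (hL (r, N, 1, 1) (by rw [hT]; simp)) _)
  · exact b3_sl Z hS hH h20 ha hb L hbL hL t u
  · exact Z.conj_mem_Cl_of_sep memB2 (hS a ha b hb) ha' hb' h1 h2 hbL hL t u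
  · rw [b3_ll Z hS hH h20 ha hb h1 h2 t u, mul_inv_cancel_right]
    exact X_mem_Cl _ hbL _

end partZ

end Cfsg.Agent.Lib.Helper45.StW
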